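import Mathlib
import Cfsg.Prelude.Def_KGroupFacts
import Cfsg.Agent.Lib.H92.Expl22
import Cfsg.Agent.Lib.H92.Expl23b
import Cfsg.Agent.Lib.H92.Aut2

/-!
Automorphisms of a level 1 group: those acting evenly on the class are inner.
-/

set_option autoImplicit false
set_option linter.dupNamespace false
set_option linter.unusedSectionVars false
set_option linter.style.haveILetI false
set_option linter.unusedVariables false
open Cfsg

namespace H92.Out22
open H92.Herm H92.UTransv H92.PV H92.RigidVec H92.Tri H92.Pol H92.Lev H92.RelList H92.Geo H92.Inv2 H92.Inv3 H92.Exact1 H92.Exact1c H92.Sign1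
open H92.Sign2 H92.Simple H92.QS H92.Lam H92.M22 H92.AutC

variable {G : Type*} [Group G]

/-- an element normalizing a level one set and acting evenly on it acts as a member of the generated group -/
theorem even_inner [Finite G] {E : Set G} (h : LG 1 E) (hE : E.ncard = 3510) {α : G} (hα : α ∈ Nm E) (hs : sg E ⟨α, hα⟩ = 1) :
    ∃ g ∈ Subgroup.closure E, ∀ y ∈ E, Commute (g⁻¹ * α) y := by
  have ht := h.lev.tri
  obtain ⟨d, hd⟩ := h.lev.nonempty
  obtain ⟨g0, hg0, he0⟩ := h.lev.trans (hα.1 d hd) hd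
  have hNm : ∀ a : G, a ∈ Subgroup.closure E → a ∈ Nm E := fun a ha => ⟨fun y hy => conj_closure ht ha hy, fun y hy => by
    have := conj_closure ht (Subgroup.inv_mem _ ha) hy
    rwa [inv_inv] at this⟩
  have hβN : g0 * α ∈ Nm E := (Nm E).mul_mem (hNm _ hg0) hα
  have hβd : Commute (g0 * α) d := by
    have h1 : (g0 * α) * d * (g0 * α)⁻¹ = d := by
      rw [_root_.mul_inv_rev]
      calc g0 * α * d * (α⁻¹ * g0⁻¹) = g0 * (α * d * α⁻¹) * g0⁻¹ := by group
        _ = d := he0
    exact mul_inv_eq_iff_eq_mul.1 h1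
  have hsβ : sg E ⟨g0 * α, hβN⟩ = 1 := by
    have e : (⟨g0 * α, hβN⟩ : ↥(Nm E)) = ⟨g0, hNm _ hg0⟩ * ⟨α, hα⟩ := rfl
    rw [e, map_mul, hs, sg_one h hE hg0, one_mul]
  obtain ⟨hT, K, _, _, τ, P⟩ := h.C hd
  obtain ⟨w, hw0, hw1, hw⟩ := exists_omega P.card
  obtain ⟨g, hg, h1 | ⟨e, f, he, hβ⟩⟩ := rigid_or h hd hT P hβN.1 hβN.2 hβd
  · have hgE : g ∈ Subgroup.closure E := Subgroup.closure_mono (C_subset E d) hg
    have hgd : Commute g d := centralizes_of_closure (S := Tri.C E d) (x := d) (fun y hy => hy.2.2.symm) hg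
    have hgN : g⁻¹ * (g0 * α) ∈ Nm E := (Nm E).mul_mem ((Nm E).inv_mem (hNm _ hgE)) hβN
    rcases zeta ht h.geo hd hgN.1 (hgd.inv_left.mul_left hβd) h1 with h2 | h2
    · refine ⟨g0⁻¹ * g, Subgroup.mul_mem _ (Subgroup.inv_mem _ hg0) hgE, ?_⟩
      intro y hy
      have e : (g0⁻¹ * g)⁻¹ * α = g⁻¹ * (g0 * α) := by group
      rw [e]; exact h2 y hy
    · refine ⟨g0⁻¹ * g * d, Subgroup.mul_mem _ (Subgroup.mul_mem _ (Subgroup.inv_mem _ hg0) hgE) (Subgroup.subset_closure hd), ?_⟩
      intro y hy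
      have e : (g0⁻¹ * g * d)⁻¹ * α = d * (g⁻¹ * (g0 * α)) := by
        have : d⁻¹ = d := Tri.inv_eq ht hd
        rw [_root_.mul_inv_rev, this]; group
      rw [e]; exact h2 y hy
  · exfalso
    have hgE : g ∈ Subgroup.closure E := Subgroup.closure_mono (C_subset E d) hg
    have hgN : g⁻¹ * (g0 * α) ∈ Nm E := (Nm E).mul_mem ((Nm E).inv_mem (hNm _ hgE)) hβN
    have hgd : Commute g d := centralizes_of_closure (S := Tri.C E d) (x := d) (fun y hy => hy.2.2.symm) hg
    have h2 := sg_neg h hE hd hT P he hgN (hgd.inv_left.mul_left hβd) hβ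
    have h3 : sg E ⟨g⁻¹ * (g0 * α), hgN⟩ = 1 := by
      have e : (⟨g⁻¹ * (g0 * α), hgN⟩ : ↥(Nm E)) = (⟨g, hNm _ hgE⟩)⁻¹ * ⟨g0 * α, hβN⟩ := rfl
      rw [e, map_mul, map_inv, hsβ, sg_one h hE hgE, _root_.inv_one, one_mul]
    rw [h3] at h2
    exact absurd h2 (by decide)

theorem comm_one {D : Set G} (hcl : Subgroup.closure D = ⊤) (hZ : Subgroup.center G = ⊥) {z : G} (hz : ∀ y ∈ D, Commute z y) : z = 1 := by
  have h4 : Subgroup.closure D ≤ Subgroup.centralizer ({z} : Set G) := by
    rw [Subgroup.closure_le]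
    intro y hyD
    rw [SetLike.mem_coe, Subgroup.mem_centralizer_singleton_iff]
    exact (hz y hyD).symm.eq
  rw [hcl] at h4
  have h5 : z ∈ Subgroup.center G := by
    rw [Subgroup.mem_center_iff]
    intro g
    exact Subgroup.mem_centralizer_singleton_iff.1 (h4 (Subgroup.mem_top g))
  rw [hZ, Subgroup.mem_bot] at h5
  exact h5

theorem aut_eq_one {D : Set G} (hcl : Subgroup.closure D = ⊤) (φ : MulAut G) (h : ∀ d ∈ D, φ d = d) : φ = 1 := by
  apply MulEquiv.ext
  intro g
  have hg : g ∈ Subgroup.closure D := by rw [hcl]; trivial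
  show φ g = g
  induction hg using Subgroup.closure_induction with
  | mem y hy => exact h y hy
  | one => exact map_one _
  | mul a b _ _ ha hb => rw [map_mul, ha, hb]
  | inv a _ ha => rw [map_inv, ha]

/-- the sign of an automorphism on the class -/
noncomputable def sgA [Finite G] (D : Set G) (hst : ∀ φ : MulAut G, ∀ d ∈ D, φ d ∈ D) : MulAut G →* ℤˣ :=
  haveI : Finite (MulAut G) := Finite.of_injective (fun φ : MulAut G => (φ : G → G)) (fun a b hab => MulEquiv.ext (fun x => congrFun hab x))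
  (sg ((MulAut.conj : G →* MulAut G) '' D)).comp
    { toFun := fun φ => ⟨φ, nm_conj hst φ⟩, map_one' := rfl, map_mul' := fun _ _ => rfl }

theorem inner_of_even [Finite G] {D : Set G} (h : LG 1 D) (hE : D.ncard = 3510) (hcl : Subgroup.closure D = ⊤) (hZ : Subgroup.center G = ⊥)
    (hst : ∀ φ : MulAut G, ∀ d ∈ D, φ d ∈ D) (φ : MulAut G) (hs : sgA D hst φ = 1) : ∃ g : G, MulAut.conj g = φ := by
  haveI : Finite (MulAut G) := Finite.of_injective (fun φ : MulAut G => (φ : G → G)) (fun a b hab => MulEquiv.ext (fun x => congrFun hab x))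
  have hinj := conj_injective hZ
  have h1 := lg_image (MulAut.conj : G →* MulAut G) h.lev.tri hinj.injOn h
  have h2 := nm_conj hst φ
  have hE' : ((MulAut.conj : G →* MulAut G) '' D).ncard = 3510 := by rw [Set.ncard_image_of_injective _ hinj, hE]
  obtain ⟨g, hg, hc⟩ := even_inner h1 hE' h2 hs
  rw [← MonoidHom.map_closure, hcl] at hg
  obtain ⟨x, -, rfl⟩ := hg
  refine ⟨x, ?_⟩
  have h3 : ∀ d ∈ D, ((MulAut.conj x)⁻¹ * φ) d = d := by
    intro d hd
    apply hinj
    rw [← conj_map]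
    have := hc _ ⟨d, hd, rfl⟩
    rw [this.eq, mul_inv_cancel_right]
  exact eq_of_inv_mul_eq_one (aut_eq_one hcl _ h3)

theorem even_of_inner [Finite G] {D : Set G} (h : LG 1 D) (hE : D.ncard = 3510) (hcl : Subgroup.closure D = ⊤) (hZ : Subgroup.center G = ⊥)
    (hst : ∀ φ : MulAut G, ∀ d ∈ D, φ d ∈ D) (g : G) : sgA D hst (MulAut.conj g) = 1 := by
  haveI : Finite (MulAut G) := Finite.of_injective (fun φ : MulAut G => (φ : G → G)) (fun a b hab => MulEquiv.ext (fun x => congrFun hab x))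
  have hinj := conj_injective hZ
  have h1 := lg_image (MulAut.conj : G →* MulAut G) h.lev.tri hinj.injOn h
  have hE' : ((MulAut.conj : G →* MulAut G) '' D).ncard = 3510 := by rw [Set.ncard_image_of_injective _ hinj, hE]
  refine sg_one h1 hE' ?_ _
  rw [← MonoidHom.map_closure, hcl]
  exact ⟨g, Subgroup.mem_top g, rfl⟩

/-- the outer automorphism group has order one or two, and order two as soon as there is an outer automorphism. -/
theorem card_out [Finite G] {D : Set G} (h : LG 1 D) (hE : D.ncard = 3510) (hcl : Subgroup.closure D = ⊤) (hZ : Subgroup.center G = ⊥)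
    (hst : ∀ φ : MulAut G, ∀ d ∈ D, φ d ∈ D) (hex : ∃ φ : MulAut G, ∀ g : G, MulAut.conj g ≠ φ) : Nat.card (Out G) = 2 := by
  obtain ⟨φ0, hφ0⟩ := hex
  have hker : (sgA D hst).ker = Inn G := by
    ext φ
    rw [MonoidHom.mem_ker]
    constructor
    · intro hs
      obtain ⟨g, hg⟩ := inner_of_even h hE hcl hZ hst φ hs
      exact ⟨g, hg⟩
    · rintro ⟨g, rfl⟩
      exact even_of_inner h hE hcl hZ hst g
  have hφs : sgA D hst φ0 = -1 := by
    rcases Int.units_eq_one_or (sgA D hst φ0) with h1 | h1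
    · obtain ⟨g, hg⟩ := inner_of_even h hE hcl hZ hst φ0 h1
      exact absurd hg (hφ0 g)
    · exact h1
  have hsurj : Function.Surjective (sgA D hst) := by
    intro x
    rcases Int.units_eq_one_or x with h1 | h1
    · exact ⟨1, by rw [map_one, h1]⟩
    · exact ⟨φ0, by rw [hφs, h1]⟩
  have h2 : Nat.card (MulAut G ⧸ (sgA D hst).ker) = 2 := by
    rw [Nat.card_congr (QuotientGroup.quotientKerEquivOfSurjective _ hsurj).toEquiv, Nat.card_eq_fintype_card]
    rfl
  rw [← h2]
  exact Nat.card_congr (QuotientGroup.quotientMulEquivOfEq hker.symm).toEquiv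

theorem card_out_le [Finite G] {D : Set G} (h : LG 1 D) (hE : D.ncard = 3510) (hcl : Subgroup.closure D = ⊤) (hZ : Subgroup.center G = ⊥)
    (hst : ∀ φ : MulAut G, ∀ d ∈ D, φ d ∈ D) : Nat.card (Out G) ≤ 2 := by
  by_cases hex : ∃ φ : MulAut G, ∀ g : G, MulAut.conj g ≠ φ
  · exact (card_out h hE hcl hZ hst hex).le
  · push Not at hex
    have h1 : Inn G = ⊤ := by
      rw [eq_top_iff]
      intro φ _
      exact hex φ
    have : Subsingleton (Out G) := by
      rw [show Out G = (MulAut G ⧸ Inn G) from rfl, h1]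
      exact QuotientGroup.subsingleton_quotient_top
    rw [Nat.card_of_subsingleton (1 : Out G)]
    norm_num

end H92.Out22

namespace H92.Expl22
open H35.FiClass22 H35.Fi22Main

theorem grp : IsThreeTranspositionGroup D :=
  ⟨H92.Expl23.set_of_tri tri one_notMem, fun g d hd => conj_mem hd g, closure_D⟩

theorem stable (φ : MulAut Cfsg.Spor.Fi22) : ∀ d ∈ D, φ d ∈ D := by
  intro d hd
  have h1 := H92.AutC.class_image grp (fun a ha b hb => by
    obtain ⟨x, rfl⟩ := mem_iff.1 ha
    obtain ⟨y, rfl⟩ := mem_iff.1 hb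
    exact ⟨y * x⁻¹, by group⟩) ⟨t, t_mem⟩ φ
  have h2 := uniq _ h1
  rw [← h2]
  exact ⟨d, hd, rfl⟩

theorem card_out_le : Nat.card (Out Cfsg.Spor.Fi22) ≤ 2 := by
  have hfin : Finite Cfsg.Spor.Fi22 := fin
  exact H92.Out22.card_out_le lg card closure_D center stable

/-- the outer automorphism group of Fi22 has order two once there is an outer automorphism -/
theorem card_out (hex : ∃ φ : MulAut Cfsg.Spor.Fi22, ∀ g : Cfsg.Spor.Fi22, MulAut.conj g ≠ φ) : Nat.card (Out Cfsg.Spor.Fi22) = 2 := by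
  have hfin : Finite Cfsg.Spor.Fi22 := fin
  exact H92.Out22.card_out lg card closure_D center stable hex

end H92.Expl22
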