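import Mathlib
import Cfsg.Prelude.Def_FischerSpaces
import Cfsg.Agent.Lib.H92.Out24a
import Cfsg.Agent.Lib.H92.Norm4
import Cfsg.Agent.Lib.H92.Exact
import Cfsg.Agent.Lib.H92.QS

/-!
The joint centralizer of two commuting members in a level 3 group.
-/

set_option autoImplicit false
set_option linter.dupNamespace false
set_option linter.unusedSectionVars false
set_option linter.style.haveILetI false
set_option linter.unusedVariables false
open Cfsg

namespace H92.Cover
open H92.Tri H92.Pol H92.Lev H92.RelList H92.Geo H92.Inv2 H92.Inv3 H92.M24 H92.M23b H92.Uniq H92.Out24 H92.QS H92.Simple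

/-! ### general -/

theorem gfit_of_quasi {H : Type*} [Group H] [Finite H] (K : Subgroup H) [K.Normal] (hq : IsQuasisimple ↥K)
    (hc : Subgroup.centralizer (K : Set H) ≤ K) : generalizedFittingSubgroup H = K := by
  have hcomp : IsComponent K := ⟨Subgroup.Normal.isSubnormal inferInstance, hq⟩
  have hC : ∀ L : Subgroup H, ⁅K, L⁆ = ⊥ → L ≤ K ∧ ⁅L, L⁆ = ⊥ := by
    intro L hL
    rw [Subgroup.commutator_eq_bot_iff_le_centralizer] at hL
    have h1 : L ≤ Subgroup.centralizer (K : Set H) := by
      intro z hz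
      rw [Subgroup.mem_centralizer_iff]
      intro y hy
      exact (Subgroup.mem_centralizer_iff.1 (hL hy) z hz).symm
    have h2 : L ≤ K := h1.trans hc
    refine ⟨h2, ?_⟩
    rw [Subgroup.commutator_eq_bot_iff_le_centralizer]
    exact h1.trans (Subgroup.centralizer_le (SetLike.coe_subset_coe.2 h2))
  have hlay : layer H = K := by
    apply le_antisymm
    · apply sSup_le
      intro L hL
      rcases H26.Components.eq_or_commutator_eq_bot hcomp hL with h | h
      · exact h.ge
      · exact (hC L h).1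
    · exact H26.Components.le_layer hcomp
  have hfit : fittingSubgroup H ≤ K := by
    apply (hC _ _).1
    have := H26.Components.commutator_layer_fittingSubgroup (G := H)
    rwa [hlay] at this
  rw [generalizedFittingSubgroup, hlay]
  exact sup_eq_left.2 hfit

section lev
variable {G : Type*} [Group G]

theorem P2_subset {E : Set G} : P2 E ⊆ Subgroup.closure E := by
  rintro t ⟨p, hp, q, hq, rfl⟩
  exact Subgroup.mul_mem _ (Subgroup.subset_closure hp) (Subgroup.subset_closure hq.1)

theorem ev_pair {n : ℕ} {E : Set G} (h : LG (n + 1) E) {x y : G} (hx : x ∈ E) (hy : y ∈ E) : x * y ∈ Subgroup.closure (P2 E) := by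
  have hsq := h.lev.tri.sq
  by_cases hxy : x = y
  · rw [← hxy, hsq x hx]; exact Subgroup.one_mem _
  by_cases hc : Commute x y
  · exact Subgroup.subset_closure ⟨x, Q_left hx ⟨hy, fun e => hxy e.symm, hc⟩⟩
  · obtain ⟨z, hz, z1, z2⟩ := h.2.1 x hx y hy
    have n1 : z ≠ x := by rintro rfl; exact hc z2
    have n2 : y ≠ z := by rintro rfl; exact hc z1.symm
    have e : x * y = (x * z) * (z * y) := by
      calc x * y = x * (z * z) * y := by rw [hsq z hz, mul_one]
        _ = (x * z) * (z * y) := by group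
    rw [e]
    exact Subgroup.mul_mem _ (Subgroup.subset_closure ⟨x, Q_left hx ⟨hz, n1, z1.symm⟩⟩) (Subgroup.subset_closure ⟨z, Q_left hz ⟨hy, n2, z2⟩⟩)

theorem exists_list_of_closure {E : Set G} (ht : Tri E) {g : G} (hg : g ∈ Subgroup.closure E) : ∃ l : List G, (∀ a ∈ l, a ∈ E) ∧ l.prod = g := by
  induction hg using Subgroup.closure_induction with
  | mem y hy => exact ⟨[y], by simpa using hy, by simp⟩
  | one => exact ⟨[], by simp, rfl⟩
  | mul y z _ _ hy hz =>
    obtain ⟨l, hl, rfl⟩ := hy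
    obtain ⟨l', hl', rfl⟩ := hz
    refine ⟨l ++ l', ?_, by rw [List.prod_append]⟩
    intro a ha
    rcases List.mem_append.1 ha with h2 | h2
    exacts [hl a h2, hl' a h2]
  | inv y _ hy =>
    obtain ⟨l, hl, rfl⟩ := hy
    refine ⟨l.reverse, fun a ha => hl a (List.mem_reverse.1 ha), ?_⟩
    rw [List.prod_inv_reverse]
    congr 2
    conv_lhs => rw [← List.map_id l]
    apply List.map_congr_left
    intro a ha
    exact (Tri.inv_eq ht (hl a ha)).symm

theorem ev_list {n : ℕ} {E : Set G} (h : LG (n + 1) E) : ∀ (l : List G), (∀ a ∈ l, a ∈ E) →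
    (Even l.length → l.prod ∈ Subgroup.closure (P2 E)) ∧ (Odd l.length → ∀ x ∈ E, x * l.prod ∈ Subgroup.closure (P2 E))
  | [], _ => ⟨fun _ => by rw [List.prod_nil]; exact Subgroup.one_mem _, fun hodd => by simp at hodd⟩
  | a :: l, hl => by
    have ih := ev_list h l (fun x hx => hl x (List.mem_cons_of_mem _ hx))
    have ha := hl a (by simp)
    refine ⟨fun he => ?_, fun ho x hx => ?_⟩
    · rw [List.prod_cons]
      apply ih.2 _ a ha
      rw [List.length_cons, Nat.even_add_one, Nat.not_even_iff_odd] at he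
      exact he
    · rw [List.prod_cons, ← mul_assoc]
      refine Subgroup.mul_mem _ (ev_pair h hx ha) (ih.1 ?_)
      rw [List.length_cons, Nat.odd_add_one, Nat.not_odd_iff_even] at ho
      exact ho

theorem ev_or {n : ℕ} {E : Set G} (h : LG (n + 1) E) {g a : G} (hg : g ∈ Subgroup.closure E) (ha : a ∈ E) :
    g ∈ Subgroup.closure (P2 E) ∨ a * g ∈ Subgroup.closure (P2 E) := by
  obtain ⟨l, hl, rfl⟩ := exists_list_of_closure h.lev.tri hg
  rcases Nat.even_or_odd l.length with h1 | h1
  · exact Or.inl ((ev_list h l hl).1 h1)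
  · exact Or.inr ((ev_list h l hl).2 h1 a ha)

theorem ev_or' {n : ℕ} {E : Set G} (h : LG (n + 1) E) {g a : G} (hg : g ∈ Subgroup.closure E) (ha : a ∈ E) :
    g ∈ Subgroup.closure (P2 E) ∨ g * a ∈ Subgroup.closure (P2 E) := by
  rcases ev_or h (Subgroup.inv_mem _ hg) ha with h1 | h1
  · left; have := Subgroup.inv_mem _ h1; rwa [inv_inv] at this
  · right
    have := Subgroup.inv_mem _ h1
    rwa [_root_.mul_inv_rev, inv_inv, Tri.inv_eq h.lev.tri ha] at this

theorem perfect_ev {n : ℕ} {E : Set G} (h : LG (n + 1) E) : Group.IsPerfect ↥(Subgroup.closure (P2 E)) := by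
  have ht := h.lev.tri
  have hsq := ht.sq
  obtain ⟨a, ha⟩ := h.lev.nonempty
  obtain ⟨b, hb⟩ := (h.C ha).lev.nonempty
  obtain ⟨c, hc1, hc2, hc3, hc4, hc5⟩ : ∃ c ∈ E, c ≠ a ∧ c ≠ b ∧ Commute a c ∧ Commute b c := by
    obtain ⟨l, l1, l2, l3, l4⟩ := exists_list (h.C ha).lev
    -- a list of at least two commuting members of C E a
    obtain ⟨c, hc, hcb, hbc⟩ : ∃ c ∈ Tri.C E a, c ≠ b ∧ Commute b c := by
      obtain ⟨c, hc, hcb, hcb', hbc, -⟩ := (h.C ha).lev.common_nbr hb hb (Commute.refl b)
      exact ⟨c, hc, hcb, hbc.symm⟩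
    exact ⟨c, hc.1, hc.2.1, hcb, hc.2.2, hbc⟩
  apply perfect_of_odd (P2 E) ?_ ?_ [a * b, b * c, c * a] ?_ (by simp [show Odd 3 by decide]) ?_
  · rintro t ⟨p, hp, q, hq, rfl⟩
    calc p * q * (p * q) = p * (q * p) * q := by group
      _ = (p * p) * (q * q) := by rw [← hq.2.2.eq]; group
      _ = 1 := by rw [hsq p hp, hsq q hq.1, one_mul]
  · rintro t ⟨p, hp, q, hq, rfl⟩ t' ⟨p', hp', q', hq', rfl⟩
    obtain ⟨m1, m2, m3⟩ := pairs hp hq
    obtain ⟨m1', m2', m3'⟩ := pairs hp' hq'
    obtain ⟨g, hg, he⟩ := trans_list2 h.lev [p, q] [p', q'] rfl (by simp) m1 m1' m2 m2' m3 m3'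
    simp only [List.map_cons, List.map_nil, List.cons.injEq, and_true] at he
    obtain ⟨e1, e2⟩ := he
    have e3 : g * (p * q) * g⁻¹ = p' * q' := by rw [← e1, ← e2]; group
    rcases ev_or' h hg hp with h1 | h1
    · exact ⟨g, h1, e3⟩
    · refine ⟨g * p, h1, ?_⟩
      rw [← e3, _root_.mul_inv_rev]
      have h2 := hsq p hp
      have h3 := Tri.inv_eq ht hp
      rw [h3]
      calc g * p * (p * q) * (p * g⁻¹) = g * (p * p) * (q * p) * g⁻¹ := by group
        _ = g * (p * q) * g⁻¹ := by rw [h2, mul_one, ← hq.2.2.eq]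
  · intro t ht'
    simp only [List.mem_cons, List.not_mem_nil, or_false] at ht'
    rcases ht' with rfl | rfl | rfl
    · exact ⟨a, Q_left ha hb⟩
    · exact ⟨b, Q_left hb.1 ⟨hc1, hc3, hc5⟩⟩
    · exact ⟨c, Q_left hc1 ⟨ha, fun e => hc2 e.symm, hc4.symm⟩⟩
  · simp only [List.prod_cons, List.prod_nil, mul_one]
    calc a * b * (b * c * (c * a)) = a * (b * b) * (c * c) * a := by group
      _ = 1 := by rw [hsq b hb.1, hsq c hc1, mul_one, mul_one, hsq a ha]

/-- the even part is quasisimple as soon as the central quotient of the whole group is simple -/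
theorem quasi_ev {n : ℕ} {E : Set G} (h : LG (n + 1) E)
    (hs : IsSimpleGroup (↥(Subgroup.closure E) ⧸ Subgroup.center ↥(Subgroup.closure E))) : IsQuasisimple ↥(Subgroup.closure (P2 E)) := by
  refine ⟨perfect_ev h, ?_⟩
  have ht := h.lev.tri
  have hle : Subgroup.closure (P2 E) ≤ Subgroup.closure E := by
    rw [Subgroup.closure_le]; exact P2_subset
  have hcen : ∀ z ∈ Subgroup.closure E, (∀ k ∈ Subgroup.closure (P2 E), Commute z k) → ∀ e ∈ E, Commute z e := by
    intro z hz hzk a ha
    obtain ⟨b, hb⟩ := (h.C ha).lev.nonempty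
    obtain ⟨c, hc, hcb, hcb', hbc, -⟩ := (h.C ha).lev.common_nbr hb hb (Commute.refl b)
    -- z commutes with a b, a c, b c ; z a z⁻¹ is determined
    have h1 := hzk _ (ev_pair h ha hb.1)
    have h2 := hzk _ (ev_pair h ha hc.1)
    have hconj : ∀ x ∈ E, z * x * z⁻¹ ∈ E := fun x hx => conj_closure ht hz hx
    have hpair : ∀ p q, p ∈ E → q ∈ Tri.C E p → Commute z (p * q) → z * p * z⁻¹ = p ∨ z * p * z⁻¹ = q := by
      intro p q hp hq hc
      have e1 : z * p * z⁻¹ * (z * q * z⁻¹) = p * q := by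
        have : z * (p * q) * z⁻¹ = p * q := by rw [hc.eq, mul_inv_cancel_right]
        rw [← this]; group
      have h3 : Q E (z * p * z⁻¹) (p * q) := by
        rw [← e1]
        apply Q_left (hconj p hp)
        refine ⟨hconj q hq.1, fun e => hq.2.1 (mul_left_cancel (mul_right_cancel e)), ?_⟩
        exact hq.2.2.map (MulAut.conj z).toMonoidHom
      exact Qpair h.lev hp hq h3
    have h3 := hpair a b ha hb h1
    have h4 := hpair a c ha hc h2
    have h5 : z * a * z⁻¹ = a := by
      rcases h3 with h3 | h3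
      · exact h3
      · rcases h4 with h4 | h4
        · exact h4
        · exact absurd (h3.symm.trans h4).symm hcb
    exact mul_inv_eq_iff_eq_mul.1 h5
  let φ : ↥(Subgroup.closure (P2 E)) →* ↥(Subgroup.closure E) ⧸ Subgroup.center ↥(Subgroup.closure E) :=
    (QuotientGroup.mk' _).comp (Subgroup.inclusion hle)
  have hker : ∀ x, φ x = 1 ↔ x ∈ Subgroup.center ↥(Subgroup.closure (P2 E)) := by
    intro x
    show (QuotientGroup.mk (Subgroup.inclusion hle x) : ↥(Subgroup.closure E) ⧸ Subgroup.center ↥(Subgroup.closure E)) = 1 ↔ _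
    rw [QuotientGroup.eq_one_iff, Subgroup.mem_center_iff, Subgroup.mem_center_iff]
    constructor
    · intro h1 k
      have := h1 (Subgroup.inclusion hle k)
      have e : (k : G) * x = x * k := congrArg (Subtype.val : ↥(Subgroup.closure E) → G) this
      exact Subtype.ext e
    · intro h1 g
      have h2 := hcen x (hle x.2) (fun k hk => (congrArg Subtype.val (h1 ⟨k, hk⟩) : k * (x : G) = x * k).symm)
      exact Subtype.ext ((centralizes_of_closure (fun e he => (h2 e he).symm) g.2).eq)
  have hsurj : Function.Surjective φ := by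
    haveI := hs
    have hn : φ.range.Normal := by
      refine ⟨?_⟩
      rintro _ ⟨x, rfl⟩ y
      obtain ⟨g, rfl⟩ := QuotientGroup.mk_surjective y
      have hgx : (g : G) * x * (g : G)⁻¹ ∈ Subgroup.closure (P2 E) := by
        have h2 : (Subgroup.closure (P2 E)).map (MulAut.conj (g : G)).toMonoidHom ≤ Subgroup.closure (P2 E) := by
          rw [MonoidHom.map_closure, Subgroup.closure_le]
          rintro _ ⟨_, ⟨p, hp, q, hq, rfl⟩, rfl⟩
          apply Subgroup.subset_closure
          have e : (MulAut.conj (g : G)).toMonoidHom (p * q) = (g * p * (g : G)⁻¹) * (g * q * (g : G)⁻¹) := by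
            show (g : G) * (p * q) * (g : G)⁻¹ = _
            group
          rw [e]
          refine ⟨_, Q_left (conj_closure ht g.2 hp) ⟨conj_closure ht g.2 hq.1, fun e => hq.2.1 (mul_left_cancel (mul_right_cancel e)), ?_⟩⟩
          exact hq.2.2.map (MulAut.conj (g : G)).toMonoidHom
        exact h2 ⟨x, x.2, rfl⟩
      exact ⟨⟨_, hgx⟩, rfl⟩
    rcases hn.eq_bot_or_eq_top with h1 | h1
    · exfalso
      obtain ⟨x, hx⟩ := h.lev.nonempty
      obtain ⟨y, hy, hxy⟩ := h.lev.partner hx
      have h2 : φ ⟨x * y, ev_pair h hx hy⟩ ∈ φ.range := ⟨_, rfl⟩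
      rw [h1, Subgroup.mem_bot, hker] at h2
      have h3 := hcen (x * y) (hle (ev_pair h hx hy)) (fun k hk => (congrArg Subtype.val (Subgroup.mem_center_iff.1 h2 ⟨k, hk⟩) : k * (x * y) = (x * y) * k).symm) x hx
      apply hxy
      have h4 : x * (y * x) = x * (x * y) := by rw [← mul_assoc]; exact h3.eq
      exact (mul_left_cancel h4).symm
    · exact MonoidHom.range_eq_top.1 h1
  have hk : φ.ker = Subgroup.center ↥(Subgroup.closure (P2 E)) := by
    ext x; rw [MonoidHom.mem_ker]; exact hker x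
  have e1 := QuotientGroup.quotientKerEquivOfSurjective φ hsurj
  have e2 := (QuotientGroup.quotientMulEquivOfEq hk.symm).trans e1
  exact (e2.isSimpleGroup_congr).2 hs

end lev

end H92.Cover
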