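import Mathlib
import Cfsg.Prelude.Def_FischerSpaces
import Cfsg.Agent.Lib.H92.Cover1

/-!
The joint centralizer of two commuting members in the derived group of a level 3 group: the structure.
-/

set_option autoImplicit false
set_option linter.dupNamespace false
set_option linter.unusedSectionVars false
set_option linter.style.haveILetI false
set_option linter.unusedVariables false
open Cfsg

namespace H92.Cover
open H92.Tri H92.Pol H92.Lev H92.RelList H92.Setup H92.Geo H92.Inv2 H92.Inv3 H92.M24 H92.M23b H92.Uniq H92.Out24 H92.QS H92.Simple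

variable {G : Type*} [Group G]

/-- elements commuting with all common neighbours -/
theorem cent4 {D : Set G} (h : LG 3 D) (hcl : Subgroup.closure D = ⊤) (hZ : Subgroup.center G = ⊥) {d1 d2 : G} (hd1 : d1 ∈ D) (hd2 : d2 ∈ Tri.C D d1)
    {z : G} (hz : ∀ y ∈ Tri.C (Tri.C D d1) d2, Commute z y) (c1 : Commute z d1) (c2 : Commute z d2) : z = 1 ∨ z = d1 ∨ z = d2 ∨ z = d1 * d2 := by
  have ht := h.lev.tri
  have h1 := h.C hd1
  have hcen := central_one hcl hZ
  have hnorm : ∀ ζ : G, ∀ y ∈ D, ζ * y * ζ⁻¹ ∈ D := fun ζ y hy => conj_closure ht (by rw [hcl]; exact Subgroup.mem_top ζ) hy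
  have up : ∀ ζ : G, Commute ζ d1 → (∀ y ∈ Tri.C D d1, Commute ζ y) → ζ = 1 ∨ ζ = d1 := by
    intro ζ a b
    rcases zeta ht h.geo hd1 (hnorm ζ) a b with h2 | h2
    · exact Or.inl (hcen _ h2)
    · right
      have := hcen _ h2
      have h3 : ζ = d1⁻¹ := eq_inv_of_mul_eq_one_right this
      rw [h3, Tri.inv_eq ht hd1]
  have hn1 : ∀ y ∈ Tri.C D d1, z * y * z⁻¹ ∈ Tri.C D d1 := by
    intro y hy
    have := conj_mem_C (g := z) (hnorm z) hy
    rwa [c1.eq, mul_inv_cancel_right] at this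
  rcases zeta h1.lev.tri h1.geo hd2 hn1 c2 hz with h2 | h2
  · rcases up z c1 h2 with h3 | h3
    · exact Or.inl h3
    · exact Or.inr (Or.inl h3)
  · have hh : z = d2 * (d2 * z) := by rw [← mul_assoc, ht.sq d2 hd2.1, one_mul]
    rcases up (d2 * z) (hd2.2.2.symm.mul_left c1) h2 with h3 | h3
    · right; right; left
      rw [hh, h3, mul_one]
    · right; right; right
      rw [hh, h3]
      exact hd2.2.2.symm

variable {D : Set G} {N : Subgroup G}

theorem mem_E1 (H : Hyp24 D N) {d1 d2 : G} (hd1 : d1 ∈ D) (hd2 : d2 ∈ Tri.C D d1) :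
    d1 ∈ Subgroup.closure (Tri.C (Tri.C D d1) d2) ∧ d2 ∈ Subgroup.closure (Tri.C (Tri.C D d1) d2) ∧
    d1 * d2 ∈ Subgroup.closure (P2 (Tri.C (Tri.C D d1) d2)) := by
  have h := H.h
  have hE := (h.C hd1).C hd2
  have hsub : ∀ y ∈ Tri.C (Tri.C D d1) d2, y ∈ D := fun y hy => hy.1.1
  have hc4 : ∀ l : List G, Rel (Tri.C (Tri.C D d1) d2) l → l.prod = 1 ∨ l.prod = d1 ∨ l.prod = d2 ∨ l.prod = d1 * d2 := by
    intro l hl
    apply cent4 h H.hcl H.hZ hd1 hd2 hl.cent
    · exact (commute_prod (fun y hy => (hl.mem y hy).1.2.2)).symm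
    · exact (commute_prod (fun y hy => (hl.mem y hy).2.2)).symm
  have n1 : d1 ∉ N := H.hDN d1 hd1
  have n2 : d2 ∉ N := H.hDN d2 hd2.1
  have n12 : d1 * d2 ∈ N := H.mul_mem n1 n2
  -- a list of length six
  obtain ⟨b0, hb0⟩ := hE.lev.nonempty
  obtain ⟨A, hA, hAl, hAE, hAc⟩ := exists_list hE.lev
  obtain ⟨l6, hl6, hll6, -, -⟩ := block hE A hA hAl hAE hAc
  have p6 : l6.prod = d1 * d2 := by
    have hN6 : l6.prod ∈ N := (H.list_mem l6 (fun y hy => hsub y (hl6.mem y hy))).2 (by rw [hll6]; decide)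
    rcases hc4 l6 hl6 with e | e | e | e
    · exfalso
      rcases h.lev.rel_min l6 hl6.nodup (fun y hy => hsub y (hl6.mem y hy)) hl6.comm (by intro e' _; rw [e]; exact Commute.one_left _) with h2 | h2
      · rw [h2] at hll6; simp at hll6
      · omega
    · exact absurd (e ▸ hN6) n1
    · exact absurd (e ▸ hN6) n2
    · exact e
  -- a list of length seven
  obtain ⟨l7, hl7, hll7⟩ := hept hE hb0
  have p7 : (b0 :: l7).prod = d1 ∨ (b0 :: l7).prod = d2 := by
    have hN7 : (b0 :: l7).prod ∉ N := by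
      rw [H.list_mem (b0 :: l7) (fun y hy => hsub y (hl7.mem y hy)), List.length_cons, hll7]
      decide
    rcases hc4 _ hl7 with e | e | e | e
    · rw [e] at hN7; exact absurd N.one_mem hN7
    · exact Or.inl e
    · exact Or.inr e
    · rw [e] at hN7; exact absurd n12 hN7
  have m7 : (b0 :: l7).prod ∈ Subgroup.closure (Tri.C (Tri.C D d1) d2) :=
    Subgroup.list_prod_mem _ (fun y hy => Subgroup.subset_closure (hl7.mem y hy))
  have m6 : d1 * d2 ∈ Subgroup.closure (Tri.C (Tri.C D d1) d2) := by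
    rw [← p6]
    exact Subgroup.list_prod_mem _ (fun y hy => Subgroup.subset_closure (hl6.mem y hy))
  have m6' : d1 * d2 ∈ Subgroup.closure (P2 (Tri.C (Tri.C D d1) d2)) := by
    rw [← p6]
    exact (ev_list hE l6 hl6.mem).1 (by rw [hll6]; decide)
  rcases p7 with e | e
  · rw [e] at m7
    refine ⟨m7, ?_, m6'⟩
    have := Subgroup.mul_mem _ (Subgroup.inv_mem _ m7) m6
    rwa [inv_mul_cancel_left] at this
  · rw [e] at m7
    refine ⟨?_, m7, m6'⟩
    have := Subgroup.mul_mem _ m6 (Subgroup.inv_mem _ m7)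
    rwa [mul_inv_cancel_right] at this

/-- elements commuting with two commuting members -/
theorem cent_pair (H : Hyp24 D N) {d1 d2 : G} (hd1 : d1 ∈ D) (hd2 : d2 ∈ Tri.C D d1) {α : G} (c1 : Commute α d1) (c2 : Commute α d2) :
    α ∈ Subgroup.closure (Tri.C (Tri.C D d1) d2) := by
  have h := H.h
  obtain ⟨m1, m2, -⟩ := mem_E1 H hd1 hd2
  have hF := h.C hd1
  have hα : α ∈ Subgroup.closure (Tri.C D d1) := by
    rw [H92.Exact.centralizer_three h H.hcl H.hZ hd1, Subgroup.mem_centralizer_singleton_iff]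
    exact c1
  have ht := hF.lev.tri
  obtain ⟨g, hg, hgy⟩ := H92.Exact.exact_one hF (α := α) (fun y hy => conj_closure ht hα hy) (fun y hy => by
    have := conj_closure ht (Subgroup.inv_mem _ hα) hy
    rwa [inv_inv] at this) (fun ζ _ hζy => centralizes_of_closure (fun y hy => (hζy y hy).symm) hα) hd2 c2
  have hg' : g ∈ Subgroup.closure (Tri.C (Tri.C D d1) d2) := by
    refine (Subgroup.closure_le _).2 ?_ hg
    rintro y (hy | hy)
    · exact Subgroup.subset_closure hy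
    · rw [Set.mem_singleton_iff.1 hy]; exact m2
  have c3 : Commute (g⁻¹ * α) d1 := by
    refine Commute.mul_left (Commute.inv_left ?_) c1
    exact centralizes_of_closure (fun y hy => hy.1.2.2.symm) hg'
  have h2 := (center_H h H.hcl H.hZ hd1).2.1 (g⁻¹ * α) hgy c3
  have h3 : α = g * (g⁻¹ * α) := by group
  rw [h3]
  refine Subgroup.mul_mem _ hg' ?_
  rcases h2 with h2 | h2 <;> rw [h2]
  · exact Subgroup.one_mem _
  · exact m1

theorem P2_le (H : Hyp24 D N) {E : Set G} (hE : E ⊆ D) : Subgroup.closure (P2 E) ≤ N := by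
  rw [Subgroup.closure_le]
  rintro _ ⟨p, hp, q, hq, rfl⟩
  exact H.pair_mem (hE hp) (hE hq.1)

theorem mem_ev (H : Hyp24 D N) {n : ℕ} {E : Set G} (hE : LG (n + 1) E) (hED : E ⊆ D) {g : G} (hg : g ∈ Subgroup.closure E) (hgN : g ∈ N) :
    g ∈ Subgroup.closure (P2 E) := by
  obtain ⟨a, ha⟩ := hE.lev.nonempty
  rcases ev_or hE hg ha with h1 | h1
  · exact h1
  · exfalso
    have h2 := P2_le H hED h1
    exact H.hDN a (hED ha) ((N.mul_mem_cancel_right hgN).1 h2)

theorem K_eq (H : Hyp24 D N) {d1 d2 : G} (hd1 : d1 ∈ D) (hd2 : d2 ∈ Tri.C D d1) :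
    N ⊓ Subgroup.centralizer ({d1, d2} : Set G) = Subgroup.closure (P2 (Tri.C (Tri.C D d1) d2)) := by
  have hE := (H.h.C hd1).C hd2
  have hsub : Tri.C (Tri.C D d1) d2 ⊆ D := fun y hy => hy.1.1
  ext α
  rw [Subgroup.mem_inf]
  constructor
  · rintro ⟨h1, h2⟩
    rw [Subgroup.mem_centralizer_iff] at h2
    refine mem_ev H hE hsub (cent_pair H hd1 hd2 ?_ ?_) h1
    · exact (h2 d1 (by simp)).symm
    · exact (h2 d2 (by simp)).symm
  · intro h1
    refine ⟨P2_le H hsub h1, ?_⟩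
    have h2 : α ∈ Subgroup.closure (Tri.C (Tri.C D d1) d2) := (Subgroup.closure_le _).2 P2_subset h1
    rw [Subgroup.mem_centralizer_iff]
    rintro x (rfl | hx)
    · exact (centralizes_of_closure (fun y hy => hy.1.2.2.symm) h2).eq.symm
    · rw [Set.mem_singleton_iff.1 hx]
      exact (centralizes_of_closure (fun y hy => hy.2.2.symm) h2).eq.symm

theorem quasi (H : Hyp24 D N) {d1 d2 : G} (hd1 : d1 ∈ D) (hd2 : d2 ∈ Tri.C D d1) :
    IsQuasisimple ↥(Subgroup.closure (P2 (Tri.C (Tri.C D d1) d2))) := by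
  have hE := (H.h.C hd1).C hd2
  obtain ⟨b, hb⟩ := hE.lev.nonempty
  obtain ⟨l, hl, hll⟩ := hept hE hb
  exact quasi_ev hE (simple_quot hE (b :: l) hl.mem (by rw [List.length_cons, hll]; decide) hl.cent)

/-- elements centralizing the even part -/
theorem comm_of_ev {n : ℕ} {E : Set G} (h : LG (n + 1) E) {z : G} (hconj : ∀ x ∈ E, z * x * z⁻¹ ∈ E)
    (hzk : ∀ k ∈ Subgroup.closure (P2 E), Commute z k) : ∀ e ∈ E, Commute z e := by
  intro a ha
  have ht := h.lev.tri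
  obtain ⟨b, hb⟩ := (h.C ha).lev.nonempty
  obtain ⟨c, hc, hcb, hcb', hbc, -⟩ := (h.C ha).lev.common_nbr hb hb (Commute.refl b)
  have h1 := hzk _ (ev_pair h ha hb.1)
  have h2 := hzk _ (ev_pair h ha hc.1)
  have hpair : ∀ p q, p ∈ E → q ∈ Tri.C E p → Commute z (p * q) → z * p * z⁻¹ = p ∨ z * p * z⁻¹ = q := by
    intro p q hp hq hc
    have e1 : z * p * z⁻¹ * (z * q * z⁻¹) = p * q := by
      have : z * (p * q) * z⁻¹ = p * q := by rw [hc.eq, mul_inv_cancel_right]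
      rw [← this]; group
    have h3 : Q E (z * p * z⁻¹) (p * q) := by
      rw [← e1]
      apply Q_left (hconj p hp)
      refine ⟨hconj q hq.1, fun e => hq.2.1 (mul_left_cancel (mul_right_cancel e)), ?_⟩
      exact hq.2.2.map (MulAut.conj z).toMonoidHom
    exact Qpair h.lev hp hq h3
  have h3 := hpair a b ha hb h1
  have h4 := hpair a c ha hc h2
  have h5 : z * a * z⁻¹ = a := by
    rcases h3 with h3 | h3
    · exact h3
    · rcases h4 with h4 | h4
      · exact h4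
      · exact absurd (h3.symm.trans h4).symm hcb
  exact mul_inv_eq_iff_eq_mul.1 h5

theorem norm_E1 (H : Hyp24 D N) {d1 d2 : G} (hd1 : d1 ∈ D) (hd2 : d2 ∈ Tri.C D d1) {c : G} (hc : Commute c (d1 * d2)) :
    ∀ x ∈ Tri.C (Tri.C D d1) d2, c * x * c⁻¹ ∈ Tri.C (Tri.C D d1) d2 := by
  intro x hx
  have h1 : c * x * c⁻¹ ∈ D := H.conj c hx.1.1
  have c1 : Commute (c * d1 * c⁻¹) (c * x * c⁻¹) := hx.1.2.2.map (MulAut.conj c).toMonoidHom
  have c2 : Commute (c * d2 * c⁻¹) (c * x * c⁻¹) := hx.2.2.map (MulAut.conj c).toMonoidHom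
  have n1 : c * x * c⁻¹ ≠ c * d1 * c⁻¹ := fun e => hx.1.2.1 (mul_left_cancel (mul_right_cancel e))
  have n2 : c * x * c⁻¹ ≠ c * d2 * c⁻¹ := fun e => hx.2.1 (mul_left_cancel (mul_right_cancel e))
  rcases pair_conj H.h.lev H.hcl hd1 hd2 hc with ⟨e1, e2⟩ | ⟨e1, e2⟩
  · rw [e1] at c1 n1; rw [e2] at c2 n2
    exact ⟨⟨h1, n1, c1⟩, n2, c2⟩
  · rw [e1] at c1 n1; rw [e2] at c2 n2
    exact ⟨⟨h1, n2, c2⟩, n1, c1⟩

/-- an element centralizing all common neighbours and the product -/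
theorem cent_prod (H : Hyp24 D N) {d1 d2 : G} (hd1 : d1 ∈ D) (hd2 : d2 ∈ Tri.C D d1) {c : G} 
    (hcE : ∀ x ∈ Tri.C (Tri.C D d1) d2, Commute c x) : c = 1 ∨ c = d1 ∨ c = d2 ∨ c = d1 * d2 := by
  obtain ⟨m1, m2, -⟩ := mem_E1 H hd1 hd2
  have h1 : ∀ g ∈ Subgroup.closure (Tri.C (Tri.C D d1) d2), Commute c g := fun g hg => (centralizes_of_closure (fun y hy => (hcE y hy).symm) hg).symm
  exact cent4 H.h H.hcl H.hZ hd1 hd2 hcE (h1 d1 m1) (h1 d2 m2)

theorem cent_K (H : Hyp24 D N) {d1 d2 : G} (hd1 : d1 ∈ D) (hd2 : d2 ∈ Tri.C D d1) {c : G} (hcN : c ∈ N) (hc : Commute c (d1 * d2))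
    (hcK : ∀ k ∈ Subgroup.closure (P2 (Tri.C (Tri.C D d1) d2)), Commute c k) : c = 1 ∨ c = d1 * d2 := by
  have h1 := comm_of_ev ((H.h.C hd1).C hd2) (norm_E1 H hd1 hd2 hc) hcK
  rcases cent_prod H hd1 hd2 h1 with e | e | e | e
  · exact Or.inl e
  · exact absurd (e ▸ hcN) (H.hDN d1 hd1)
  · exact absurd (e ▸ hcN) (H.hDN d2 hd2.1)
  · exact Or.inr e

theorem index_K (H : Hyp24 D N) {d1 d2 : G} (hd1 : d1 ∈ D) (hd2 : d2 ∈ Tri.C D d1) :
    ((N ⊓ Subgroup.centralizer ({d1, d2} : Set G)).subgroupOf (N ⊓ Subgroup.centralizer ({d1 * d2} : Set G))).index = 2 := by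
  have h := H.h
  have ht := h.lev.tri
  obtain ⟨w, hw, hw1, hw2⟩ := h.lev.common_partner hd1 hd2.1 hd2.2.2
  set t := w * d1 * d2 * w with htdef
  have t1 : t * d1 * t⁻¹ = d2 := swap_conj ht hd1 hd2.1 hw hd2.2.2 hw1 hw2
  have t2 : t * d2 * t⁻¹ = d1 := swap_conj' ht hd1 hd2.1 hw hd2.2.2 hw1 hw2
  have htN : t ∈ N := by
    rw [htdef]
    have e : w * d1 * d2 * w = (w * d1) * (d2 * w) := by group
    rw [e]
    exact N.mul_mem (H.pair_mem hw hd1) (H.pair_mem hd2.1 hw)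
  have htC : t ∈ N ⊓ Subgroup.centralizer ({d1 * d2} : Set G) := by
    refine ⟨htN, ?_⟩
    show t ∈ Subgroup.centralizer ({d1 * d2} : Set G)
    rw [Subgroup.mem_centralizer_singleton_iff]
    calc t * (d1 * d2) = (t * d1 * t⁻¹) * (t * d2 * t⁻¹) * t := by group
      _ = d2 * d1 * t := by rw [t1, t2]
      _ = _ := by rw [hd2.2.2.eq]
  have hmem : ∀ c : G, c ∈ N → (c ∈ N ⊓ Subgroup.centralizer ({d1, d2} : Set G) ↔ c * d1 * c⁻¹ = d1 ∧ c * d2 * c⁻¹ = d2) := by
    intro c hcN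
    rw [Subgroup.mem_inf, and_iff_right hcN, Subgroup.mem_centralizer_iff]
    constructor
    · intro hc
      have h1 := hc d1 (by simp)
      have h2 := hc d2 (by simp)
      rw [← h1, ← h2, mul_inv_cancel_right, mul_inv_cancel_right]
      exact ⟨rfl, rfl⟩
    · rintro ⟨h1, h2⟩ x (rfl | hx)
      · rw [mul_inv_eq_iff_eq_mul] at h1; exact h1.symm
      · rw [Set.mem_singleton_iff.1 hx]
        rw [mul_inv_eq_iff_eq_mul] at h2; exact h2.symm
  rw [Subgroup.index_eq_two_iff]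
  refine ⟨⟨t, htC⟩, ?_⟩
  rintro ⟨b, hb⟩
  rw [Subgroup.mem_subgroupOf, Subgroup.mem_subgroupOf]
  show Xor (b * t ∈ N ⊓ Subgroup.centralizer ({d1, d2} : Set G)) (b ∈ N ⊓ Subgroup.centralizer ({d1, d2} : Set G))
  obtain ⟨hbN, hb⟩ := hb
  rw [hmem _ (N.mul_mem hbN htN), hmem _ hbN]
  have e1 : b * t * d1 * (b * t)⁻¹ = b * d2 * b⁻¹ := by
    calc b * t * d1 * (b * t)⁻¹ = b * (t * d1 * t⁻¹) * b⁻¹ := by group
      _ = _ := by rw [t1]
  have e2 : b * t * d2 * (b * t)⁻¹ = b * d1 * b⁻¹ := by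
    calc b * t * d2 * (b * t)⁻¹ = b * (t * d2 * t⁻¹) * b⁻¹ := by group
      _ = _ := by rw [t2]
  rw [e1, e2]
  have hb' : Commute b (d1 * d2) := Subgroup.mem_centralizer_singleton_iff.1 hb
  have hne : d1 ≠ d2 := hd2.2.1.symm
  rcases pair_conj h.lev H.hcl hd1 hd2 hb' with ⟨h1, h2⟩ | ⟨h1, h2⟩
  · right
    exact ⟨⟨h1, h2⟩, fun h3 => hne (by rw [← h3.1, h2])⟩
  · left
    exact ⟨⟨h2, h1⟩, fun h3 => hne (by rw [← h3.1, h1])⟩

theorem K_le_CL {d1 d2 : G} : N ⊓ Subgroup.centralizer ({d1, d2} : Set G) ≤ N ⊓ Subgroup.centralizer ({d1 * d2} : Set G) := by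
  rintro c ⟨h1, h2⟩
  refine ⟨h1, ?_⟩
  have h2' : ∀ x ∈ ({d1, d2} : Set G), x * c = c * x := Subgroup.mem_centralizer_iff.1 h2
  show c ∈ Subgroup.centralizer ({d1 * d2} : Set G)
  rw [Subgroup.mem_centralizer_singleton_iff]
  have a1 := h2' d1 (by simp)
  have a2 := h2' d2 (by simp)
  exact (Commute.mul_right (show Commute c d1 from a1.symm) (show Commute c d2 from a2.symm)).eq

/-- the generalized Fitting subgroup -/
theorem gfit [Finite G] (H : Hyp24 D N) {d1 d2 : G} (hd1 : d1 ∈ D) (hd2 : d2 ∈ Tri.C D d1) :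
    N ⊓ Subgroup.centralizer ({d1, d2} : Set G) =
      (generalizedFittingSubgroup ↥(N ⊓ Subgroup.centralizer ({d1 * d2} : Set G))).map (N ⊓ Subgroup.centralizer ({d1 * d2} : Set G)).subtype := by
  have hK := K_eq H hd1 hd2
  have hind := index_K H hd1 hd2
  have hle : N ⊓ Subgroup.centralizer ({d1, d2} : Set G) ≤ N ⊓ Subgroup.centralizer ({d1 * d2} : Set G) := K_le_CL
  haveI : ((N ⊓ Subgroup.centralizer ({d1, d2} : Set G)).subgroupOf (N ⊓ Subgroup.centralizer ({d1 * d2} : Set G))).Normal :=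
    Subgroup.normal_of_index_eq_two hind
  have hq : IsQuasisimple ↥((N ⊓ Subgroup.centralizer ({d1, d2} : Set G)).subgroupOf (N ⊓ Subgroup.centralizer ({d1 * d2} : Set G))) := by
    rw [H26.Components.isQuasisimple_subgroupOf hle, hK]
    exact quasi H hd1 hd2
  rw [gfit_of_quasi _ hq, Subgroup.subgroupOf_map_subtype, inf_eq_left.2 hle]
  intro c hc
  rw [Subgroup.mem_centralizer_iff] at hc
  have hcN : (c : G) ∈ N := c.2.1
  have hcj : Commute (c : G) (d1 * d2) := Subgroup.mem_centralizer_singleton_iff.1 c.2.2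
  have h1 : ∀ k ∈ Subgroup.closure (P2 (Tri.C (Tri.C D d1) d2)), Commute (c : G) k := by
    intro k hk
    rw [← hK] at hk
    have := hc ⟨k, hle hk⟩ hk
    exact (congrArg Subtype.val this).symm
  rw [Subgroup.mem_subgroupOf, hK]
  rcases cent_K H hd1 hd2 hcN hcj h1 with e | e
  · rw [e]; exact Subgroup.one_mem _
  · rw [e]; exact (mem_E1 H hd1 hd2).2.2

end H92.Cover
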