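import Mathlib
import Cfsg.Prelude.Def_FischerSpaces
import Cfsg.Agent.Lib.H92.Cover2

/-!
The centralizer of a product of two commuting members modulo the product is the full automorphism group of the central quotient.
-/

set_option autoImplicit false
set_option linter.dupNamespace false
set_option linter.unusedSectionVars false
set_option linter.style.haveILetI false
set_option linter.unusedVariables false
open Cfsg

namespace H92.Cover
open H92.Tri H92.Pol H92.Lev H92.RelList H92.Setup H92.Geo H92.Inv2 H92.Inv3 H92.M24 H92.M23b H92.Uniq H92.Out24 H92.QS H92.Simple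

/-- automorphisms of the central quotient -/
noncomputable def quoAut (A : Type*) [Group A] : MulAut A →* MulAut (A ⧸ Subgroup.center A) where
  toFun φ := QuotientGroup.congr (Subgroup.center A) (Subgroup.center A) φ (Subgroup.characteristic_iff_map_eq.1 inferInstance φ)
  map_one' := by
    ext x
    obtain ⟨x, rfl⟩ := QuotientGroup.mk_surjective x
    rfl
  map_mul' φ ψ := by
    ext x
    obtain ⟨x, rfl⟩ := QuotientGroup.mk_surjective x
    rfl

theorem quoAut_mk {A : Type*} [Group A] (φ : MulAut A) (x : A) : quoAut A φ (QuotientGroup.mk x) = QuotientGroup.mk (φ x) := rfl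

variable {G : Type*} [Group G] {D : Set G} {N : Subgroup G}

theorem mem_center_K1 (H : Hyp24 D N) {d1 d2 : G} (hd1 : d1 ∈ D) (hd2 : d2 ∈ Tri.C D d1) (z : ↥(Subgroup.closure (Tri.C (Tri.C D d1) d2))) :
    z ∈ Subgroup.center ↥(Subgroup.closure (Tri.C (Tri.C D d1) d2)) ↔ ((z : G) = 1 ∨ (z : G) = d1 ∨ (z : G) = d2 ∨ (z : G) = d1 * d2) := by
  have c1 : ∀ w : ↥(Subgroup.closure (Tri.C (Tri.C D d1) d2)), Commute (w : G) d1 := fun w => centralizes_of_closure (fun y hy => hy.1.2.2.symm) w.2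
  have c2 : ∀ w : ↥(Subgroup.closure (Tri.C (Tri.C D d1) d2)), Commute (w : G) d2 := fun w => centralizes_of_closure (fun y hy => hy.2.2.symm) w.2
  constructor
  · intro hz
    rw [Subgroup.mem_center_iff] at hz
    apply cent_prod H hd1 hd2
    intro y hy
    exact (congrArg Subtype.val (hz ⟨y, Subgroup.subset_closure hy⟩)).symm
  · intro hz
    rw [Subgroup.mem_center_iff]
    intro w
    apply Subtype.ext
    show (w : G) * z = z * w
    rcases hz with hz | hz | hz | hz <;> rw [hz]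
    · rw [mul_one, one_mul]
    · exact c1 w
    · exact c2 w
    · exact (c1 w).mul_right (c2 w)

theorem card_center_K1 (H : Hyp24 D N) {d1 d2 : G} (hd1 : d1 ∈ D) (hd2 : d2 ∈ Tri.C D d1) :
    Nat.card (Subgroup.center ↥(Subgroup.closure (Tri.C (Tri.C D d1) d2))) = 4 := by
  have h1D : (1 : G) ∉ D := fun hh => H.h.lev.ne_one hh rfl
  obtain ⟨m1, m2, -⟩ := mem_E1 H hd1 hd2
  have h1 : (((Subgroup.center ↥(Subgroup.closure (Tri.C (Tri.C D d1) d2))).map (Subgroup.subtype _) : Subgroup G) : Set G) = {1, d1, d2, d1 * d2} := by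
    ext z
    rw [SetLike.mem_coe, Subgroup.mem_map]
    constructor
    · rintro ⟨w, hw, rfl⟩
      exact (mem_center_K1 H hd1 hd2 w).1 hw
    · intro hz
      have hzK : z ∈ Subgroup.closure (Tri.C (Tri.C D d1) d2) := by
        rcases hz with rfl | hz | hz | hz
        · exact Subgroup.one_mem _
        · rw [hz]; exact m1
        · rw [hz]; exact m2
        · rw [Set.mem_singleton_iff.1 hz]; exact Subgroup.mul_mem _ m1 m2
      exact ⟨⟨z, hzK⟩, (mem_center_K1 H hd1 hd2 ⟨z, hzK⟩).2 hz, rfl⟩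
  have h2 : Nat.card ((Subgroup.center ↥(Subgroup.closure (Tri.C (Tri.C D d1) d2))).map (Subgroup.subtype _) : Subgroup G) = 4 := by
    have : Nat.card ((Subgroup.center ↥(Subgroup.closure (Tri.C (Tri.C D d1) d2))).map (Subgroup.subtype _) : Subgroup G) =
      (((Subgroup.center ↥(Subgroup.closure (Tri.C (Tri.C D d1) d2))).map (Subgroup.subtype _) : Subgroup G) : Set G).ncard := rfl
    rw [this, h1, H92.M23.four_distinct H.h.lev.tri h1D hd1 hd2]
  rwa [Subgroup.card_map_of_injective (Subgroup.subtype_injective _)] at h2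

theorem card_K1 (H : Hyp24 D N) {d1 d2 : G} (hd1 : d1 ∈ D) (hd2 : d2 ∈ Tri.C D d1) :
    Nat.card ↥(Subgroup.closure (Tri.C (Tri.C D d1) d2)) = 2 * Nat.card ↥(N ⊓ Subgroup.centralizer ({d1, d2} : Set G)) := by
  have hE := (H.h.C hd1).C hd2
  have hsub : Tri.C (Tri.C D d1) d2 ⊆ D := fun y hy => hy.1.1
  have h1 : (N.subgroupOf (Subgroup.closure (Tri.C (Tri.C D d1) d2))).index = 2 := by
    obtain ⟨a, ha⟩ := hE.lev.nonempty
    rw [Subgroup.index_eq_two_iff]
    refine ⟨⟨a, Subgroup.subset_closure ha⟩, fun b => ?_⟩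
    rw [Subgroup.mem_subgroupOf, Subgroup.mem_subgroupOf]
    show Xor ((b : G) * a ∈ N) ((b : G) ∈ N)
    rw [Subgroup.mul_mem_iff_of_index_two H.hN]
    have haN := H.hDN a (hsub ha)
    by_cases hb : (b : G) ∈ N
    · right; exact ⟨hb, fun h => haN (h.1 hb)⟩
    · left; exact ⟨⟨fun h => absurd h hb, fun h => absurd h haN⟩, hb⟩
  have h2 := Subgroup.card_mul_index (N.subgroupOf (Subgroup.closure (Tri.C (Tri.C D d1) d2)))
  rw [h1] at h2
  have h3 : N ⊓ Subgroup.centralizer ({d1, d2} : Set G) = N ⊓ Subgroup.closure (Tri.C (Tri.C D d1) d2) := by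
    rw [K_eq H hd1 hd2]
    apply le_antisymm
    · exact le_inf (P2_le H hsub) ((Subgroup.closure_le _).2 P2_subset)
    · rintro x ⟨hx1, hx2⟩
      exact mem_ev H hE hsub hx2 hx1
  rw [h3, ← h2, mul_comm, ← Nat.card_congr (Subgroup.subgroupOfEquivOfLe (inf_le_right : N ⊓ Subgroup.closure (Tri.C (Tri.C D d1) d2) ≤ _)).toEquiv,
    Subgroup.inf_subgroupOf_right]

theorem card_CL (H : Hyp24 D N) {d1 d2 : G} (hd1 : d1 ∈ D) (hd2 : d2 ∈ Tri.C D d1) :
    Nat.card ↥(N ⊓ Subgroup.centralizer ({d1 * d2} : Set G)) = Nat.card ↥(Subgroup.closure (Tri.C (Tri.C D d1) d2)) := by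
  have h1 := Subgroup.card_mul_index ((N ⊓ Subgroup.centralizer ({d1, d2} : Set G)).subgroupOf (N ⊓ Subgroup.centralizer ({d1 * d2} : Set G)))
  rw [index_K H hd1 hd2, Nat.card_congr (Subgroup.subgroupOfEquivOfLe K_le_CL).toEquiv] at h1
  rw [card_K1 H hd1 hd2, ← h1, mul_comm]

theorem le_norm (H : Hyp24 D N) {d1 d2 : G} (hd1 : d1 ∈ D) (hd2 : d2 ∈ Tri.C D d1) :
    N ⊓ Subgroup.centralizer ({d1 * d2} : Set G) ≤ Subgroup.normalizer ((Subgroup.closure (Tri.C (Tri.C D d1) d2) : Subgroup G) : Set G) := by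
  have key : ∀ c : G, Commute c (d1 * d2) → ∀ x ∈ Subgroup.closure (Tri.C (Tri.C D d1) d2), c * x * c⁻¹ ∈ Subgroup.closure (Tri.C (Tri.C D d1) d2) := by
    intro c hc x hx
    have h2 : (Subgroup.closure (Tri.C (Tri.C D d1) d2)).map (MulAut.conj c).toMonoidHom ≤ Subgroup.closure (Tri.C (Tri.C D d1) d2) := by
      rw [MonoidHom.map_closure, Subgroup.closure_le]
      rintro _ ⟨y, hy, rfl⟩
      exact Subgroup.subset_closure (norm_E1 H hd1 hd2 hc y hy)
    exact h2 ⟨x, hx, rfl⟩
  rintro c ⟨-, hc⟩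
  have hc' : Commute c (d1 * d2) := Subgroup.mem_centralizer_singleton_iff.1 hc
  rw [Subgroup.mem_normalizer_iff]
  intro x
  constructor
  · exact key c hc' x
  · intro hx
    have := key c⁻¹ hc'.inv_left _ hx
    have e : c⁻¹ * (c * x * c⁻¹) * c⁻¹⁻¹ = x := by group
    rwa [e] at this

/-- the action on the central quotient -/
noncomputable def act (H : Hyp24 D N) {d1 d2 : G} (hd1 : d1 ∈ D) (hd2 : d2 ∈ Tri.C D d1) :
    ↥(N ⊓ Subgroup.centralizer ({d1 * d2} : Set G)) →*
      MulAut (↥(Subgroup.closure (Tri.C (Tri.C D d1) d2)) ⧸ Subgroup.center ↥(Subgroup.closure (Tri.C (Tri.C D d1) d2))) :=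
  (quoAut _).comp ((Subgroup.closure (Tri.C (Tri.C D d1) d2)).normalizerMonoidHom.comp (Subgroup.inclusion (le_norm H hd1 hd2)))

theorem act_mk (H : Hyp24 D N) {d1 d2 : G} (hd1 : d1 ∈ D) (hd2 : d2 ∈ Tri.C D d1) (c : ↥(N ⊓ Subgroup.centralizer ({d1 * d2} : Set G)))
    (x : ↥(Subgroup.closure (Tri.C (Tri.C D d1) d2))) : ∃ y : ↥(Subgroup.closure (Tri.C (Tri.C D d1) d2)), (y : G) = c * x * (c : G)⁻¹ ∧
      act H hd1 hd2 c (QuotientGroup.mk x) = QuotientGroup.mk y := ⟨_, rfl, rfl⟩

theorem act_ker (H : Hyp24 D N) {d1 d2 : G} (hd1 : d1 ∈ D) (hd2 : d2 ∈ Tri.C D d1) (c : ↥(N ⊓ Subgroup.centralizer ({d1 * d2} : Set G))) :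
    act H hd1 hd2 c = 1 ↔ ((c : G) = 1 ∨ (c : G) = d1 * d2) := by
  have h1D : (1 : G) ∉ D := fun hh => H.h.lev.ne_one hh rfl
  have ht := H.h.lev.tri
  constructor
  · intro hc
    have hcj : Commute (c : G) (d1 * d2) := Subgroup.mem_centralizer_singleton_iff.1 c.2.2
    have key : ∀ e ∈ Tri.C (Tri.C D d1) d2, Commute (c : G) e := by
      intro e he
      have he' := norm_E1 H hd1 hd2 hcj e he
      obtain ⟨y, hy, hy'⟩ := act_mk H hd1 hd2 c ⟨e, Subgroup.subset_closure he⟩
      rw [hc, MulAut.one_apply, QuotientGroup.eq, mem_center_K1 H hd1 hd2] at hy'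
      have e1 : ((((⟨e, Subgroup.subset_closure he⟩ : ↥(Subgroup.closure (Tri.C (Tri.C D d1) d2)))⁻¹ * y :
        ↥(Subgroup.closure (Tri.C (Tri.C D d1) d2))) : G)) = e⁻¹ * ((c : G) * e * (c : G)⁻¹) := by
        rw [Subgroup.coe_mul, Subgroup.coe_inv, hy]
      rw [e1] at hy'
      have hdm : ∀ z, e⁻¹ * ((c : G) * e * (c : G)⁻¹) = z → (c : G) * e * (c : G)⁻¹ = e * z := fun z hz => by rw [← hz]; group
      rcases hy' with e2 | e2 | e2 | e2
      · have := hdm _ e2
        rw [mul_one] at this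
        exact mul_inv_eq_iff_eq_mul.1 this
      · exfalso
        have := hdm _ e2
        exact mul_notMem H.h.lev he.1.1 hd1 he.1.2.2.symm he.1.2.1 (this ▸ he'.1.1)
      · exfalso
        have := hdm _ e2
        exact mul_notMem H.h.lev he.1.1 hd2.1 he.2.2.symm he.2.1 (this ▸ he'.1.1)
      · exfalso
        have h3 := hdm _ e2
        set e' := (c : G) * e * (c : G)⁻¹ with he'def
        have k1 : Commute e d1 := he.1.2.2.symm
        have k2 : Commute e d2 := he.2.2.symm
        have k3 : Commute d1 d2 := hd2.2.2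
        have k4 : Commute e' d1 := he'.1.2.2.symm
        have k5 : Commute e' d2 := he'.2.2.symm
        have k6 : Commute e' e := by rw [h3]; exact (Commute.refl e).mul_left (k1.symm.mul_left k2.symm)
        have := (short_eq H.h.lev [e, d1, d2] [e'] (by
          simp only [List.nodup_cons, List.mem_cons, List.not_mem_nil, or_false, not_or, List.nodup_nil, and_true, not_false_eq_true]
          exact ⟨⟨he.1.2.1, he.2.1⟩, fun h => hd2.2.1 h.symm⟩) (by simp) (by
          intro x hx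
          simp only [List.mem_cons, List.not_mem_nil, or_false] at hx
          rcases hx with rfl | rfl | rfl
          · exact he.1.1
          · exact hd1
          · exact hd2.1) (by
          intro x hx
          simp only [List.mem_cons, List.not_mem_nil, or_false] at hx
          rw [hx]; exact he'.1.1) (by
          intro a ha b hb
          simp only [List.cons_append, List.nil_append, List.mem_cons, List.not_mem_nil, or_false] at ha hb
          rcases ha with ha | ha | ha | ha <;> rcases hb with hb | hb | hb | hb <;> rw [ha, hb] <;>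
            first | exact Commute.refl _ | exact k1 | exact k1.symm | exact k2 | exact k2.symm | exact k3 | exact k3.symm | exact k4 | exact k4.symm | exact k5 | exact k5.symm | exact k6 | exact k6.symm)
          (by simp) (by simp [h3]) d1).1 (by simp)
        simp only [List.mem_cons, List.not_mem_nil, or_false] at this
        exact he'.1.2.1 this.symm
    rcases cent_prod H hd1 hd2 key with e | e | e | e
    · exact Or.inl e
    · exact absurd (e ▸ c.2.1) (H.hDN d1 hd1)
    · exact absurd (e ▸ c.2.1) (H.hDN d2 hd2.1)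
    · exact Or.inr e
  · intro hc
    ext x
    obtain ⟨x, rfl⟩ := QuotientGroup.mk_surjective x
    obtain ⟨y, hy, hy'⟩ := act_mk H hd1 hd2 c x
    rw [hy', MulAut.one_apply]
    congr 1
    apply Subtype.ext
    rw [hy]
    have c1 : Commute (x : G) d1 := centralizes_of_closure (fun y hy => hy.1.2.2.symm) x.2
    have c2 : Commute (x : G) d2 := centralizes_of_closure (fun y hy => hy.2.2.symm) x.2
    rcases hc with hc | hc <;> rw [hc]
    · group
    · rw [mul_inv_eq_iff_eq_mul]
      exact (c1.mul_right c2).symm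

/-- the theorem -/
theorem iso [Finite G] (H : Hyp24 D N) {d1 d2 : G} (hd1 : d1 ∈ D) (hd2 : d2 ∈ Tri.C D d1) {F : Type*} [Group F]
    (e : ↥(Subgroup.closure (Tri.C (Tri.C D d1) d2)) ⧸ Subgroup.center ↥(Subgroup.closure (Tri.C (Tri.C D d1) d2)) ≃* F)
    (hout : Nat.card (MulAut F) ≤ 2 * Nat.card F)
    [hn : ((Subgroup.zpowers (d1 * d2)).subgroupOf (N ⊓ Subgroup.centralizer ({d1 * d2} : Set G))).Normal] :
    Nat.card (MulAut F) = 2 * Nat.card F ∧
    Nonempty (↥(N ⊓ Subgroup.centralizer ({d1 * d2} : Set G)) ⧸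
      (Subgroup.zpowers (d1 * d2)).subgroupOf (N ⊓ Subgroup.centralizer ({d1 * d2} : Set G)) ≃* MulAut F) := by
  have ht := H.h.lev.tri
  have h1D : (1 : G) ∉ D := fun hh => H.h.lev.ne_one hh rfl
  have hj1 : d1 * d2 ≠ 1 := by
    intro h
    have h2 := eq_inv_of_mul_eq_one_right h
    rw [Tri.inv_eq ht hd1] at h2
    exact hd2.2.1 h2
  have hjj : (d1 * d2) * (d1 * d2) = 1 := by
    calc (d1 * d2) * (d1 * d2) = d1 * (d2 * d1) * d2 := by group
      _ = (d1 * d1) * (d2 * d2) := by rw [← hd2.2.2.eq]; group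
      _ = 1 := by rw [ht.sq d1 hd1, ht.sq d2 hd2.1, one_mul]
  have hzp : ∀ x, x ∈ Subgroup.zpowers (d1 * d2) ↔ x = 1 ∨ x = d1 * d2 := by
    intro x
    rw [Subgroup.mem_zpowers_iff]
    constructor
    · rintro ⟨k, rfl⟩
      rcases Int.even_or_odd' k with ⟨m, rfl | rfl⟩
      · left; rw [zpow_mul, zpow_ofNat, pow_two, hjj, one_zpow]
      · right; rw [zpow_add, zpow_mul, zpow_ofNat, pow_two, hjj, one_zpow, one_mul, zpow_one]
    · rintro (rfl | rfl)
      · exact ⟨0, zpow_zero _⟩
      · exact ⟨1, zpow_one _⟩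
  have hker : (act H hd1 hd2).ker = (Subgroup.zpowers (d1 * d2)).subgroupOf (N ⊓ Subgroup.centralizer ({d1 * d2} : Set G)) := by
    ext c
    rw [MonoidHom.mem_ker, act_ker, Subgroup.mem_subgroupOf, hzp]
  have hjCL : d1 * d2 ∈ N ⊓ Subgroup.centralizer ({d1 * d2} : Set G) :=
    ⟨H.pair_mem hd1 hd2.1, Subgroup.mem_centralizer_singleton_iff.2 rfl⟩
  have hcj : Nat.card ↥((Subgroup.zpowers (d1 * d2)).subgroupOf (N ⊓ Subgroup.centralizer ({d1 * d2} : Set G))) = 2 := by
    rw [Nat.card_congr (Subgroup.subgroupOfEquivOfLe (by rw [Subgroup.zpowers_le]; exact hjCL)).toEquiv, Nat.card_zpowers]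
    exact orderOf_eq_prime (by rw [pow_two]; exact hjj) hj1
  have hcF : Nat.card ↥(Subgroup.closure (Tri.C (Tri.C D d1) d2)) = 4 * Nat.card F := by
    rw [Subgroup.card_eq_card_quotient_mul_card_subgroup (Subgroup.center ↥(Subgroup.closure (Tri.C (Tri.C D d1) d2))), card_center_K1 H hd1 hd2,
      Nat.card_congr e.toEquiv, mul_comm]
  have hq : Nat.card (↥(N ⊓ Subgroup.centralizer ({d1 * d2} : Set G)) ⧸
      (Subgroup.zpowers (d1 * d2)).subgroupOf (N ⊓ Subgroup.centralizer ({d1 * d2} : Set G))) = 2 * Nat.card F := by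
    have h1 := Subgroup.card_eq_card_quotient_mul_card_subgroup ((Subgroup.zpowers (d1 * d2)).subgroupOf (N ⊓ Subgroup.centralizer ({d1 * d2} : Set G)))
    rw [hcj, card_CL H hd1 hd2, hcF] at h1
    omega
  have hM : Nat.card (MulAut (↥(Subgroup.closure (Tri.C (Tri.C D d1) d2)) ⧸ Subgroup.center ↥(Subgroup.closure (Tri.C (Tri.C D d1) d2)))) = Nat.card (MulAut F) :=
    Nat.card_congr (MulAut.congr e).toEquiv
  haveI : Finite (↥(Subgroup.closure (Tri.C (Tri.C D d1) d2)) ⧸ Subgroup.center ↥(Subgroup.closure (Tri.C (Tri.C D d1) d2))) := Quotient.finite _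
  haveI hfin : Finite (MulAut (↥(Subgroup.closure (Tri.C (Tri.C D d1) d2)) ⧸ Subgroup.center ↥(Subgroup.closure (Tri.C (Tri.C D d1) d2)))) :=
    Finite.of_injective (fun f => (f : _ → _)) DFunLike.coe_injective
  let f := QuotientGroup.kerLift (act H hd1 hd2)
  have hinj : Function.Injective f := QuotientGroup.kerLift_injective _
  have hcard : Nat.card (↥(N ⊓ Subgroup.centralizer ({d1 * d2} : Set G)) ⧸ (act H hd1 hd2).ker) = 2 * Nat.card F := by
    rw [← hq]
    exact Nat.card_congr (QuotientGroup.quotientMulEquivOfEq hker).toEquiv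
  have hbij : Function.Bijective f := hinj.bijective_of_nat_card_le (by rw [hM, hcard]; exact hout)
  refine ⟨?_, ⟨(QuotientGroup.quotientMulEquivOfEq hker.symm).trans ((MulEquiv.ofBijective f hbij).trans (MulAut.congr e))⟩⟩
  rw [← hM, ← hcard]
  exact (Nat.card_congr (Equiv.ofBijective f hbij)).symm

end H92.Cover
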