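import Mathlib
import Cfsg.Prelude.Def_FischerSpaces
import Cfsg.Agent.Lib.H92.Setup

/-!
The centralizer of a product of three commuting members induces the symmetric group on them.
-/

set_option autoImplicit false
set_option linter.dupNamespace false
set_option linter.unusedSectionVars false
set_option linter.style.haveILetI false
set_option linter.unusedVariables false
open Cfsg

namespace H92.Sym3
open H92.Tri H92.Lev H92.Types H92.RelList H92.Setup

variable {G : Type*} [Group G]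

theorem sym3 {n : ℕ} (hn : 2 ≤ n) {E : Set G} (h : Lev n E) (hcl : ∀ g : G, ∀ y ∈ E, g * y * g⁻¹ ∈ E) (d₁ d₂ d₃ : G)
    (h₁ : d₁ ∈ E) (h₂ : d₂ ∈ E) (h₃ : d₃ ∈ E) (h12 : d₁ ≠ d₂) (h13 : d₁ ≠ d₃) (h23 : d₂ ≠ d₃)
    (c12 : Commute d₁ d₂) (c13 : Commute d₁ d₃) (c23 : Commute d₂ d₃) (K C : Subgroup G)
    (hK : K = Subgroup.centralizer ({d₁, d₂, d₃} : Set G)) (hC : C = Subgroup.centralizer ({d₁ * d₂ * d₃} : Set G)) :
    K ≤ C ∧ ∃ _ : (K.subgroupOf C).Normal, Nonempty (↥C ⧸ K.subgroupOf C ≃* Equiv.Perm (Fin 3)) := by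
  classical
  have hKmem : ∀ k : G, k ∈ K ↔ Commute k d₁ ∧ Commute k d₂ ∧ Commute k d₃ := by
    intro k
    rw [hK, Subgroup.mem_centralizer_iff]
    constructor
    · intro hk
      exact ⟨(hk d₁ (by simp)).symm, (hk d₂ (by simp)).symm, (hk d₃ (by simp)).symm⟩
    · rintro ⟨k1, k2, k3⟩ x hx
      simp only [Set.mem_insert_iff, Set.mem_singleton_iff] at hx
      rcases hx with rfl | rfl | rfl
      · exact k1.symm.eq
      · exact k2.symm.eq
      · exact k3.symm.eq
  have hCmem : ∀ k : G, k ∈ C ↔ Commute k (d₁ * d₂ * d₃) := by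
    intro k
    rw [hC, Subgroup.mem_centralizer_singleton_iff]
    exact Iff.rfl
  have hKC : K ≤ C := by
    intro k hk
    rw [hKmem] at hk
    rw [hCmem]
    exact (hk.1.mul_right hk.2.1).mul_right hk.2.2
  refine ⟨hKC, ?_⟩
  let S : Set G := {d₁, d₂, d₃}
  have hSE : ∀ x ∈ S, x ∈ E := by
    rintro x hx
    simp only [S, Set.mem_insert_iff, Set.mem_singleton_iff] at hx
    rcases hx with rfl | rfl | rfl <;> assumption
  have hSc : ∀ x ∈ S, ∀ y ∈ S, Commute x y := by
    intro x hx y hy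
    simp only [S, Set.mem_insert_iff, Set.mem_singleton_iff] at hx hy
    rcases hx with rfl | rfl | rfl <;> rcases hy with rfl | rfl | rfl <;>
      first | exact Commute.refl _ | assumption | exact Commute.symm (by assumption)
  have hinv : ∀ (g : ↥C) (x : G), x ∈ S → g.1 * x * g.1⁻¹ ∈ S := by
    intro g x hx
    have hg := (hCmem g.1).1 g.2
    let l : List G := [d₁, d₂, d₃]
    let l' : List G := l.map (fun y => g.1 * y * g.1⁻¹)
    have hlS : ∀ y, y ∈ l ↔ y ∈ S := by intro y; simp [l, S]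
    have hnd : l.Nodup := by simp [l, h12, h13, h23]
    have hinj : Function.Injective (fun y : G => g.1 * y * g.1⁻¹) := by
      intro a b hab; simpa using hab
    have hp : l.prod = l'.prod := by
      have e1 : l.prod = d₁ * d₂ * d₃ := by simp [l, mul_assoc]
      have e2 : l'.prod = g.1 * (d₁ * d₂ * d₃) * g.1⁻¹ := by simp [l', l, mul_assoc]
      rw [e1, e2, hg.eq, mul_inv_cancel_right]
    have key := unique_short h 3 le_rfl (by omega) l l' hnd (fun y hy => hSE y ((hlS y).1 hy))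
      (fun y hy z hz => hSc y ((hlS y).1 hy) z ((hlS z).1 hz)) (by simp [l]) (hnd.map hinj)
      (by
        intro y hy
        obtain ⟨z, hz, rfl⟩ := List.mem_map.1 hy
        exact hcl _ _ (hSE z ((hlS z).1 hz)))
      (by
        intro y hy y' hy'
        obtain ⟨z, hz, rfl⟩ := List.mem_map.1 hy
        obtain ⟨z', hz', rfl⟩ := List.mem_map.1 hy'
        have := (hSc z ((hlS z).1 hz) z' ((hlS z').1 hz')).map (MulAut.conj g.1)
        simpa using this)
      (by simp [l', l]) hp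
    rw [← hlS, key]
    exact List.mem_map.2 ⟨x, (hlS x).2 hx, rfl⟩
  letI act : MulAction ↥C S :=
    { smul := fun g x => ⟨g.1 * x.1 * g.1⁻¹, hinv g x.1 x.2⟩
      one_smul := fun x => Subtype.ext (by show (1 : G) * x.1 * 1⁻¹ = x.1; group)
      mul_smul := fun g g' x => Subtype.ext (by
        show (g.1 * g'.1) * x.1 * (g.1 * g'.1)⁻¹ = g.1 * (g'.1 * x.1 * g'.1⁻¹) * g.1⁻¹
        group) }
  let φ : ↥C →* Equiv.Perm S := MulAction.toPermHom ↥C S
  have hφ : ∀ (g : ↥C) (x : S), (φ g x).1 = g.1 * x.1 * g.1⁻¹ := fun g x => rfl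
  have hker : φ.ker = K.subgroupOf C := by
    ext g
    rw [MonoidHom.mem_ker, Subgroup.mem_subgroupOf, hKmem]
    constructor
    · intro hg
      have h1 : ∀ x ∈ S, Commute g.1 x := by
        intro x hx
        have h2 := hφ g ⟨x, hx⟩
        rw [hg] at h2
        have h3 : x = g.1 * x * g.1⁻¹ := h2
        show g.1 * x = x * g.1
        exact (eq_mul_inv_iff_mul_eq.1 h3).symm
      exact ⟨h1 _ (by simp [S]), h1 _ (by simp [S]), h1 _ (by simp [S])⟩
    · rintro ⟨k1, k2, k3⟩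
      ext ⟨x, hx⟩
      rw [hφ]
      have h1 : Commute g.1 x := by
        simp only [S, Set.mem_insert_iff, Set.mem_singleton_iff] at hx
        rcases hx with rfl | rfl | rfl <;> assumption
      show g.1 * x * g.1⁻¹ = x
      rw [h1.eq, mul_inv_cancel_right]
  have hswap : ∀ x y z : G, x ∈ S → y ∈ S → z ∈ S → x ≠ y → x ≠ z → y ≠ z → (∀ u ∈ S, u = x ∨ u = y ∨ u = z) →
      x * y * z = d₁ * d₂ * d₃ → ∃ g : ↥C, ∀ u : S, (φ g u).1 = if u.1 = x then y else if u.1 = y then x else u.1 := by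
    intro x y z hx hy hz hxy hxz hyz hall hp
    obtain ⟨m, rfl⟩ : ∃ m, n = m + 1 := ⟨n - 1, by omega⟩
    have hcz := h.C (hSE z hz)
    obtain ⟨w, hw, hwx, hwy⟩ := hcz.common_partner (x := x) (y := y) ⟨hSE x hx, hxz, hSc z hz x hx⟩ ⟨hSE y hy, hyz, hSc z hz y hy⟩
      (hSc x hx y hy)
    have e1 := swap_conj h.tri (hSE x hx) (hSE y hy) hw.1 (hSc x hx y hy) hwx hwy
    have e2 := swap_conj' h.tri (hSE x hx) (hSE y hy) hw.1 (hSc x hx y hy) hwx hwy
    have e3 : Commute (w * x * y * w) z := by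
      have hwz : Commute w z := hw.2.2.symm
      exact ((hwz.mul_left (hSc x hx z hz)).mul_left (hSc y hy z hz)).mul_left hwz
    have hgC : w * x * y * w ∈ C := by
      rw [hCmem, ← hp]
      have e4 : (w * x * y * w) * (x * y * z) * (w * x * y * w)⁻¹ = x * y * z := by
        have : (w * x * y * w) * (x * y * z) * (w * x * y * w)⁻¹ =
          ((w * x * y * w) * x * (w * x * y * w)⁻¹) * ((w * x * y * w) * y * (w * x * y * w)⁻¹) *
            ((w * x * y * w) * z * (w * x * y * w)⁻¹) := by group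
        rw [this, e1, e2, e3.eq, mul_inv_cancel_right, (hSc y hy x hx).eq]
      exact mul_inv_eq_iff_eq_mul.1 e4
    refine ⟨⟨_, hgC⟩, ?_⟩
    rintro ⟨u, hu⟩
    rw [hφ]
    simp only
    rcases hall u hu with rfl | rfl | rfl
    · rw [if_pos rfl]; exact e1
    · rw [if_neg hxy.symm, if_pos rfl]; exact e2
    · rw [if_neg hxz.symm, if_neg hyz.symm, e3.eq, mul_inv_cancel_right]
  have hsurj : Function.Surjective φ := by
    rw [← MonoidHom.range_eq_top, eq_top_iff]
    rw [← Equiv.Perm.closure_isSwap, Subgroup.closure_le]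
    rintro σ ⟨⟨x, hx⟩, ⟨y, hy⟩, hxy, rfl⟩
    have hxy' : x ≠ y := fun hh => hxy (Subtype.ext hh)
    -- third element
    have hthird : ∃ z, z ∈ S ∧ x ≠ z ∧ y ≠ z ∧ (∀ u ∈ S, u = x ∨ u = y ∨ u = z) ∧ x * y * z = d₁ * d₂ * d₃ := by
      simp only [S, Set.mem_insert_iff, Set.mem_singleton_iff] at hx hy ⊢
      rcases hx with rfl | rfl | rfl <;> rcases hy with rfl | rfl | rfl
      · exact absurd rfl hxy'
      · exact ⟨d₃, by simp, h13, h23, by tauto, rfl⟩
      · exact ⟨d₂, by simp, h12, h23.symm, by tauto, by rw [mul_assoc, c23.symm.eq, ← mul_assoc]⟩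
      · exact ⟨d₃, by simp, h23, h13, by tauto, by rw [c12.symm.eq]⟩
      · exact absurd rfl hxy'
      · refine ⟨d₁, by simp, h12.symm, h13.symm, by tauto, ?_⟩
        rw [mul_assoc x y d₁, c13.symm.eq, ← mul_assoc, c12.symm.eq]
      · refine ⟨d₂, by simp, h23.symm, h12, by tauto, ?_⟩
        rw [c13.symm.eq, mul_assoc, c23.symm.eq, ← mul_assoc]
      · refine ⟨d₁, by simp, h13.symm, h12.symm, by tauto, ?_⟩
        rw [mul_assoc, c12.symm.eq, ← mul_assoc, c13.symm.eq, mul_assoc, c23.symm.eq, ← mul_assoc]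
      · exact absurd rfl hxy'
    obtain ⟨z, hz, hxz, hyz, hall, hp⟩ := hthird
    obtain ⟨g, hg⟩ := hswap x y z hx hy hz hxy' hxz hyz hall hp
    refine ⟨g, ?_⟩
    ext ⟨u, hu⟩
    rw [hg, Equiv.swap_apply_def]
    simp only [Subtype.mk.injEq]
    split_ifs <;> rfl
  rw [← hker]
  refine ⟨inferInstance, ⟨(QuotientGroup.quotientKerEquivOfSurjective φ hsurj).trans ?_⟩⟩
  have hcard : Nat.card S = 3 := by
    rw [Nat.card_coe_set_eq]
    rw [Set.ncard_eq_three]
    exact ⟨d₁, d₂, d₃, h12, h13, h23, rfl⟩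
  have e : S ≃ Fin 3 := by
    haveI : Finite S := by
      apply Set.Finite.to_subtype
      simp [S]
    exact (Finite.equivFinOfCardEq hcard)
  exact Equiv.permCongrHom e

end H92.Sym3
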