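import Mathlib
import Cfsg.Agent.Lib.H92.Expl24b
import Cfsg.Agent.Lib.H92.Cover3
import Cfsg.Agent.Lib.H92.Out22

/-!
The presented group Fi24: the centralizer of two commuting transpositions maps onto Fi22.
-/

set_option autoImplicit false
set_option linter.dupNamespace false
set_option linter.unusedSectionVars false
set_option linter.style.haveILetI false
set_option linter.unusedVariables false
set_option linter.all false
set_option maxRecDepth 10000
open Cfsg

namespace H92.Expl24
open H92.Tri H92.Pol H92.Lev H92.Step H92.Types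
open H35.FiClass24 H35.Fi24Base H35.Fi24Main

theorem exists_map : ∃ d2 ∈ H92.Tri.C D t, ∃ f : ↥(Subgroup.closure (H92.Tri.C (H92.Tri.C D t) d2)) →* Cfsg.Spor.Fi22, Function.Surjective f := by
  have hfin : Finite Cfsg.Spor.Fi24 := fin
  have hfin23 : Finite Cfsg.Spor.Fi23 := H35.Fi23Main.fin
  obtain ⟨π0, hs, hk⟩ := exists_pi
  have hKM : Subgroup.closure (C D t) = H1 := by
    rw [H92.Exact.centralizer_three lg closure_D center t_mem, ← centralizer_l]
  have hle : Subgroup.closure (C D t) ≤ H1 := hKM.le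
  let π : ↥(Subgroup.closure (C D t)) →* Cfsg.Spor.Fi23 := π0.comp (Subgroup.inclusion hle)
  have hπs : Function.Surjective π := by
    intro y
    obtain ⟨x, rfl⟩ := hs y
    exact ⟨⟨x, by rw [hKM]; exact x.2⟩, rfl⟩
  have hcl : Subgroup.closure (π '' lf D t (Subgroup.closure (C D t))) = ⊤ := by
    rw [← MonoidHom.map_closure, closure_lf rfl, ← MonoidHom.range_eq_map]
    exact MonoidHom.range_eq_top.2 hπs
  have hTl := tri_lf (H := Subgroup.closure (C D t)) tri t_mem
  have hS := diff_eq23 (tri_image π hTl) hcl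
  have h1 : (1 : Cfsg.Spor.Fi23) ∉ π '' lf D t (Subgroup.closure (C D t)) := by
    rintro ⟨x, hx, hx1⟩
    rcases (hk (Subgroup.inclusion hle x)).1 hx1 with h4 | h4
    · have h5 : (x : Cfsg.Spor.Fi24) = 1 := h4
      have h6 : (x : Cfsg.Spor.Fi24) ∈ D := hx.1
      rw [h5] at h6
      exact one_notMem h6
    · have h5 : (x : Cfsg.Spor.Fi24) = t := h4
      exact hx.2.1 h5
  rw [Set.sdiff_singleton_eq_self h1] at hS
  have ht23 : H35.FiClass23.t ∈ π '' lf D t (Subgroup.closure (C D t)) := by rw [hS]; exact H92.Expl23.t_mem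
  obtain ⟨d2, hd2, hd2t⟩ := ht23
  have hd2C : (d2 : Cfsg.Spor.Fi24) ∈ C D t := hd2
  refine ⟨d2, hd2C, ?_⟩
  have hle1 : Subgroup.closure (C (C D t) d2) ≤ Subgroup.closure (C D t) := Subgroup.closure_mono (C_subset _ _)
  let g : ↥(Subgroup.closure (C (C D t) (d2 : Cfsg.Spor.Fi24))) →* Cfsg.Spor.Fi23 := π.comp (Subgroup.inclusion hle1)
  have hg1 : ∀ x, g x ∈ H35.Fi23Main.H1 := by
    intro x
    rw [H92.Expl23.H1_eq, Subgroup.mem_centralizer_singleton_iff, ← hd2t]
    show π (Subgroup.inclusion hle1 x) * π d2 = π d2 * π (Subgroup.inclusion hle1 x)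
    rw [← map_mul, ← map_mul]
    congr 1
    apply Subtype.ext
    show (x : Cfsg.Spor.Fi24) * d2 = d2 * x
    exact (H92.Geo.centralizes_of_closure (fun y hy => hy.2.2.symm) x.2).eq
  let g' : ↥(Subgroup.closure (C (C D t) (d2 : Cfsg.Spor.Fi24))) →* ↥(H35.Fi23Main.H1) := g.codRestrict _ hg1
  have hg'r : H35.Fi23Main.H1 ≤ g.range := by
    rw [H92.Expl23.H1_eq, ← H92.Exact.centralizer_two H92.Expl23.lg H92.Expl23.closure_D H92.Expl23.center H92.Expl23.t_mem, Subgroup.closure_le]
    intro y hy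
    have hy1 : y ∈ π '' lf D t (Subgroup.closure (C D t)) := by rw [hS]; exact hy.1
    obtain ⟨x, hx, rfl⟩ := hy1
    have hxC : (x : Cfsg.Spor.Fi24) ∈ C D t := hx
    have hne : x ≠ d2 := by
      rintro rfl
      exact hy.2.1 hd2t
    have hcx : Commute d2 x := by
      rcases hTl.three d2 hd2 x hx with h2 | h2
      · exact h2
      · exfalso
        have h3 := congrArg π h2
        rw [map_mul, map_mul, map_mul, map_mul, hd2t] at h3
        have h4 := hy.2.2
        rw [h4.eq] at h3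
        have h5 : H35.FiClass23.t = π x := by
          have h6 : π x * H35.FiClass23.t * H35.FiClass23.t = π x * H35.FiClass23.t * π x := h3
          exact mul_left_cancel h6
        exact hy.2.1 h5.symm
    have hxE : (x : Cfsg.Spor.Fi24) ∈ C (C D t) (d2 : Cfsg.Spor.Fi24) :=
      ⟨hxC, fun e => hne (Subtype.ext e), congrArg Subtype.val hcx.eq⟩
    exact ⟨⟨x, Subgroup.subset_closure hxE⟩, rfl⟩
  have hg's : Function.Surjective g' := by
    rintro ⟨y, hy⟩
    obtain ⟨x, hx⟩ := hg'r hy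
    exact ⟨x, Subtype.ext hx⟩
  obtain ⟨-, ⟨e0⟩, -⟩ := H34.Fi23D.main
  exact ⟨(e0.toMonoidHom.comp (QuotientGroup.mk' _)).comp g', (e0.surjective.comp (QuotientGroup.mk'_surjective _)).comp hg's⟩

/-- a surjection onto a group with trivial centre from a group with simple central quotient -/
theorem exists_quot {A F : Type*} [Group A] [Group F] (hs : IsSimpleGroup (A ⧸ Subgroup.center A)) (hF : Subgroup.center F = ⊥) (hn : Nontrivial F)
    (f : A →* F) (hf : Function.Surjective f) : Nonempty (A ⧸ Subgroup.center A ≃* F) := by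
  have h1 : Subgroup.center A ≤ f.ker := by
    intro z hz
    rw [MonoidHom.mem_ker]
    have h3 : f z ∈ Subgroup.center F := by
      rw [Subgroup.mem_center_iff] at hz ⊢
      intro g
      obtain ⟨g', rfl⟩ := hf g
      rw [← map_mul, ← map_mul, hz]
    rw [hF, Subgroup.mem_bot] at h3
    exact h3
  let q : A ⧸ Subgroup.center A →* F := QuotientGroup.lift _ f h1
  have hq : Function.Surjective q := by
    intro y
    obtain ⟨x, rfl⟩ := hf y
    exact ⟨QuotientGroup.mk x, rfl⟩
  have hinj : Function.Injective q := by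
    rw [← MonoidHom.ker_eq_bot_iff]
    rcases (inferInstance : q.ker.Normal).eq_bot_or_eq_top with h | h
    · exact h
    · exfalso
      obtain ⟨y, hy⟩ := exists_ne (1 : F)
      obtain ⟨x, rfl⟩ := hq y
      apply hy
      have : x ∈ q.ker := by rw [h]; trivial
      exact this
  exact ⟨MulEquiv.ofBijective q ⟨hinj, hq⟩⟩

theorem mulAut_le {F : Type*} [Group F] [Finite F] (h : Nat.card (Out F) ≤ 2) : Nat.card (MulAut F) ≤ 2 * Nat.card F := by
  have hfin : Finite (MulAut F) := Finite.of_injective (fun f => (f : _ → _)) DFunLike.coe_injective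
  have h1 := Subgroup.card_eq_card_quotient_mul_card_subgroup (MulAut.conj : F →* MulAut F).range
  have h2 : Nat.card (MulAut.conj : F →* MulAut F).range ≤ Nat.card F := by
    apply Nat.card_le_card_of_surjective (MulAut.conj : F →* MulAut F).rangeRestrict
    exact MonoidHom.rangeRestrict_surjective _
  rw [h1]
  exact Nat.mul_le_mul h h2

/-- the automorphism group of Fi22 -/
theorem card_aut22 : Nat.card (MulAut Cfsg.Spor.Fi22) = 2 * Nat.card Cfsg.Spor.Fi22 := by
  have hfin : Finite Cfsg.Spor.Fi24 := fin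
  have hfin22 : Finite Cfsg.Spor.Fi22 := H35.Fi22Main.fin
  have hs22 := H35.Fi22Main.simple
  obtain ⟨d2, hd2, f, hf⟩ := exists_map
  have hE := (hyp24.h.C t_mem).C hd2
  obtain ⟨b, hb⟩ := hE.lev.nonempty
  obtain ⟨l, hl, hll⟩ := H92.Simple.hept hE hb
  have hsim := H92.Simple.simple_quot hE (b :: l) hl.mem (by rw [List.length_cons, hll]; decide) hl.cent
  obtain ⟨e⟩ := exists_quot hsim H92.Expl22.center inferInstance f hf
  haveI hn : ((Subgroup.zpowers (t * d2)).subgroupOf (commutator Cfsg.Spor.Fi24 ⊓ Subgroup.centralizer ({t * d2} : Set Cfsg.Spor.Fi24))).Normal := by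
    refine ⟨?_⟩
    intro x hx g
    have hg : (g : Cfsg.Spor.Fi24) * (t * d2) = (t * d2) * g := Subgroup.mem_centralizer_singleton_iff.1 g.2.2
    rw [Subgroup.mem_subgroupOf] at hx ⊢
    obtain ⟨k, hk⟩ := Subgroup.mem_zpowers_iff.1 hx
    rw [Subgroup.coe_mul, Subgroup.coe_mul, Subgroup.coe_inv, ← hk, ((show Commute (g : Cfsg.Spor.Fi24) (t * d2) from hg).zpow_right k).eq, mul_inv_cancel_right]
    exact Subgroup.mem_zpowers_iff.2 ⟨k, rfl⟩
  exact (H92.Cover.iso hyp24 t_mem hd2 e (mulAut_le H92.Expl22.card_out_le)).1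

theorem card_out22 : Nat.card (Out Cfsg.Spor.Fi22) = 2 := by
  have hfin22 : Finite Cfsg.Spor.Fi22 := H35.Fi22Main.fin
  have h1 := Subgroup.card_eq_card_quotient_mul_card_subgroup (MulAut.conj : Cfsg.Spor.Fi22 →* MulAut Cfsg.Spor.Fi22).range
  have h2 : Nat.card (MulAut.conj : Cfsg.Spor.Fi22 →* MulAut Cfsg.Spor.Fi22).range ≤ Nat.card Cfsg.Spor.Fi22 := by
    apply Nat.card_le_card_of_surjective (MulAut.conj : Cfsg.Spor.Fi22 →* MulAut Cfsg.Spor.Fi22).rangeRestrict
    exact MonoidHom.rangeRestrict_surjective _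
  rw [card_aut22] at h1
  have h3 : 0 < Nat.card Cfsg.Spor.Fi22 := Nat.card_pos
  have h4 := H92.Expl22.card_out_le
  have h5 : Nat.card (Out Cfsg.Spor.Fi22) = Nat.card (MulAut Cfsg.Spor.Fi22 ⧸ (MulAut.conj : Cfsg.Spor.Fi22 →* MulAut Cfsg.Spor.Fi22).range) := rfl
  rw [← h5] at h1
  have h6 : 2 * Nat.card Cfsg.Spor.Fi22 ≤ Nat.card (Out Cfsg.Spor.Fi22) * Nat.card Cfsg.Spor.Fi22 := by
    rw [h1]; exact Nat.mul_le_mul le_rfl h2
  have h7 := Nat.le_of_mul_le_mul_right h6 h3
  omega

end H92.Expl24
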