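import Mathlib
import Cfsg.Agent.Lib.H92.Expl24c
import Cfsg.Agent.Lib.H92.TypeNum
import Cfsg.Agent.Lib.H91.FY24Iso

/-!
Groups of type M(24): transfer from the presented group Fi24.
-/

set_option autoImplicit false
set_option linter.dupNamespace false
set_option linter.unusedSectionVars false
set_option linter.style.haveILetI false
set_option linter.unusedVariables false
open Cfsg

namespace H92.Cover
open H92.Tri H92.Pol H92.Lev H92.RelList H92.Setup H92.Geo H92.Inv2 H92.Inv3 H92.M24 H92.M23b H92.Uniq H92.Out24 H92.QS H92.Simple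

variable {G : Type*} [Group G] {D : Set G}

theorem commutator_map {A B : Type*} [Group A] [Group B] (φ : A ≃* B) : (commutator A).map φ.toMonoidHom = commutator B := by
  rw [commutator_def, commutator_def, Subgroup.map_commutator]
  congr 1 <;> exact Subgroup.map_top_of_surjective _ φ.surjective

/-- everything for a group of type M(24) -/
theorem hyp24_of_type [Finite G] (hD : IsThreeTranspositionGroup D) (hprim : IsPrimitiveUnderConj D) (ht : IsOfTypeM24 G D) :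
    Hyp24 D (commutator G) ∧ ∃ φ : Cfsg.Spor.Fi24 ≃* G, D = φ '' H35.FiClass24.D := by
  have hZ := ht.1
  have hT := of_set hD.1 hD.2.1
  have h1 : (1 : G) ∉ D := by
    intro h
    have := hD.1.1 1 h
    simp at this
  obtain ⟨hL, hc1, hc2, hc3⟩ := H92.TypeNum.card24 hT h1 hD.2.2 hD.2.1 hprim ht
  obtain ⟨φ, hφ⟩ := H91.FY.iso24 hD hprim hZ ht
  have hex := H92.Expl24.hyp24
  have hcm := commutator_map φ
  refine ⟨⟨hL, hD.2.2, hZ, hc1, hc2, hc3, ?_, ?_, ?_⟩, φ, hφ⟩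
  · rw [← hcm]
    rw [Subgroup.index_map_of_bijective φ.bijective]
    exact hex.hN
  · intro d hd hdN
    rw [hφ] at hd
    obtain ⟨x, hx, rfl⟩ := hd
    rw [← hcm] at hdN
    obtain ⟨y, hy, hyx⟩ := hdN
    have : y = x := φ.injective hyx
    rw [this] at hy
    exact hex.hDN x hx hy
  · rw [← Nat.card_congr φ.toEquiv]
    exact hex.hcard

/-- the map onto Fi22 -/
theorem exists_map [Finite G] (H : Hyp24 D (commutator G)) (φ : Cfsg.Spor.Fi24 ≃* G) (hφ : D = φ '' H35.FiClass24.D) {d1 d2 : G} (hd1 : d1 ∈ D) (hd2 : d2 ∈ Tri.C D d1) :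
    ∃ f : ↥(Subgroup.closure (Tri.C (Tri.C D d1) d2)) →* Cfsg.Spor.Fi22, Function.Surjective f := by
  obtain ⟨e2, he2, f, hf⟩ := H92.Expl24.exists_map
  have ht := H92.Expl24.t_mem
  have hTx := H92.Expl24.tri
  have hC : ∀ x, Tri.C (φ '' H35.FiClass24.D) (φ x) = φ '' Tri.C H35.FiClass24.D x := by
    intro x
    ext y
    constructor
    · rintro ⟨⟨z, hz, rfl⟩, h2, h3⟩
      refine ⟨z, ⟨hz, fun e => h2 (by rw [e]), ?_⟩, rfl⟩
      have h4 : φ (x * z) = φ (z * x) := by rw [map_mul, map_mul]; exact h3.eq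
      exact φ.injective h4
    · rintro ⟨z, ⟨hz, h2, h3⟩, rfl⟩
      exact ⟨⟨z, hz, rfl⟩, fun e => h2 (φ.injective e), h3.map φ.toMonoidHom⟩
  have m1 : φ H92.Expl24.t ∈ D := by rw [hφ]; exact ⟨_, ht, rfl⟩
  have m2 : φ e2 ∈ Tri.C D (φ H92.Expl24.t) := by rw [hφ, hC]; exact ⟨_, he2, rfl⟩
  obtain ⟨p1, p2, p3⟩ := pairs m1 m2
  obtain ⟨q1, q2, q3⟩ := pairs hd1 hd2
  obtain ⟨g, -, hg⟩ := trans_list2 H.h.lev [φ H92.Expl24.t, φ e2] [d1, d2] rfl (by simp) p1 q1 p2 q2 p3 q3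
  simp only [List.map_cons, List.map_nil, List.cons.injEq, and_true] at hg
  obtain ⟨g1, g2⟩ := hg
  let ψ : Cfsg.Spor.Fi24 ≃* G := φ.trans (MulAut.conj g)
  have hψ : ∀ x, ψ x = g * φ x * g⁻¹ := fun x => rfl
  have hDψ : D = ψ '' H35.FiClass24.D := by
    ext y
    constructor
    · intro hy
      have h1 : g⁻¹ * y * g⁻¹⁻¹ ∈ D := H.conj g⁻¹ hy
      rw [hφ] at h1
      obtain ⟨x, hx, he⟩ := h1
      refine ⟨x, hx, ?_⟩
      rw [hψ, he]; group
    · rintro ⟨x, hx, rfl⟩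
      rw [hψ]
      exact H.conj g (by rw [hφ]; exact ⟨x, hx, rfl⟩)
  have hCψ : ∀ (S : Set Cfsg.Spor.Fi24) x, Tri.C (ψ '' S) (ψ x) = ψ '' Tri.C S x := by
    intro S x
    ext y
    constructor
    · rintro ⟨⟨z, hz, rfl⟩, h2, h3⟩
      refine ⟨z, ⟨hz, fun e => h2 (by rw [e]), ?_⟩, rfl⟩
      have h4 : ψ (x * z) = ψ (z * x) := by rw [map_mul, map_mul]; exact h3.eq
      exact ψ.injective h4
    · rintro ⟨z, ⟨hz, h2, h3⟩, rfl⟩
      exact ⟨⟨z, hz, rfl⟩, fun e => h2 (ψ.injective e), h3.map ψ.toMonoidHom⟩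
  have hE : Tri.C (Tri.C D d1) d2 = ψ '' Tri.C (Tri.C H35.FiClass24.D H92.Expl24.t) e2 := by
    rw [← g1, ← g2, ← hψ, ← hψ, hDψ, hCψ, hCψ]
  have hcl : (Subgroup.closure (Tri.C (Tri.C H35.FiClass24.D H92.Expl24.t) e2)).map ψ.toMonoidHom = Subgroup.closure (Tri.C (Tri.C D d1) d2) := by
    rw [MonoidHom.map_closure, hE]; rfl
  let e : ↥(Subgroup.closure (Tri.C (Tri.C D d1) d2)) ≃* ↥(Subgroup.closure (Tri.C (Tri.C H35.FiClass24.D H92.Expl24.t) e2)) :=
    (MulEquiv.subgroupCongr hcl.symm).trans (ψ.subgroupMap _).symm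
  exact ⟨f.comp e.toMonoidHom, hf.comp e.surjective⟩

theorem iso22 [Finite G] (H : Hyp24 D (commutator G)) (φ : Cfsg.Spor.Fi24 ≃* G) (hφ : D = φ '' H35.FiClass24.D) {d1 d2 : G} (hd1 : d1 ∈ D) (hd2 : d2 ∈ Tri.C D d1) :
    Nonempty (↥(Subgroup.closure (Tri.C (Tri.C D d1) d2)) ⧸ Subgroup.center ↥(Subgroup.closure (Tri.C (Tri.C D d1) d2)) ≃* Cfsg.Spor.Fi22) := by
  obtain ⟨f, hf⟩ := exists_map H φ hφ hd1 hd2
  have hs22 := H35.Fi22Main.simple
  have hE := (H.h.C hd1).C hd2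
  obtain ⟨b, hb⟩ := hE.lev.nonempty
  obtain ⟨l, hl, hll⟩ := H92.Simple.hept hE hb
  have hsim := H92.Simple.simple_quot hE (b :: l) hl.mem (by rw [List.length_cons, hll]; decide) hl.cent
  exact H92.Expl24.exists_quot hsim H92.Expl22.center inferInstance f hf

end H92.Cover
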